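import Cfsg.Agent.Coprime.Generation
import Cfsg.Agent.Modules.Thompson
import Cfsg.Agent.Modules.Fixed
import Cfsg.Agent.PSolv.HallHigmanDual
import Cfsg.Agent.Cores.Basic
import Mathlib.GroupTheory.SemidirectProduct

/-!
An elementary abelian `p`-group faithful on a `p'`-group `R`, both inside the linear group of `V`,
has order at most `|V : C_V(A)|`; consequence for normal elementary abelian subgroups of
`p`-solvable groups.
-/

set_option linter.style.haveILetI false

namespace Cfsg.Agent.Stability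

open Subgroup
open scoped commutatorElement Pointwise

variable {G : Type*} [Group G] {p : ℕ}

theorem mem_of_zpow_mem [hp : Fact p.Prime] {z : G} (hz : z ^ p = 1) {k : ℤ}
    (hk : ¬ (p : ℤ) ∣ k) {H : Subgroup G} (h : z ^ k ∈ H) : z ∈ H := by
  obtain ⟨u, v, huv⟩ := (Nat.prime_iff_prime_int.1 hp.out).coprime_iff_not_dvd.2 hk
  have e : z = (z ^ k) ^ v := by
    calc z = z ^ (1 + (p : ℤ) * (-u)) := by
          rw [zpow_add, zpow_mul, zpow_natCast, hz, one_zpow, mul_one, zpow_one]
      _ = z ^ (k * v) := by congr 1; linear_combination -huv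
      _ = (z ^ k) ^ v := zpow_mul _ _ _
  rw [e]
  exact zpow_mem h v

theorem exists_mul_zpow_of_mem_sup {B : Subgroup G} {x g : G}
    (hx : x ∈ normalizer (B : Set G)) (hg : g ∈ B ⊔ zpowers x) :
    ∃ b ∈ B, ∃ k : ℤ, g = b * x ^ k := by
  rw [← SetLike.mem_coe, coe_mul_of_right_le_normalizer_left B (zpowers x) (zpowers_le.2 hx)] at hg
  obtain ⟨b, hb, w, hw, rfl⟩ := hg
  obtain ⟨k, rfl⟩ := mem_zpowers_iff.1 hw
  exact ⟨b, hb, k, rfl⟩

theorem fixed_normalized [Finite G] {A R B : Subgroup G} (hB : B ≤ A)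
    (hA : IsMulCommutative A) (hAR : A ≤ normalizer (R : Set G)) :
    A ≤ normalizer ((R ⊓ centralizer (B : Set G) : Subgroup G) : Set G) := by
  intro a ha
  refine mem_normalizer_fintype (S := ((R ⊓ centralizer (B : Set G) : Subgroup G) : Set G))
    fun r hr => ?_
  obtain ⟨hrR, hrB⟩ := Subgroup.mem_inf.1 hr
  refine Subgroup.mem_inf.2 ⟨(mem_normalizer_iff.1 (hAR ha) r).1 hrR, mem_centralizer_iff.2 ?_⟩
  intro b hb
  have h1 := mem_centralizer_iff.1 hrB b hb
  have h2 : b * a = a * b := Modules.comm_iff.1 hA b (hB hb) a ha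
  have h3 : b * a⁻¹ = a⁻¹ * b := Modules.comm_iff.1 hA b (hB hb) a⁻¹ (inv_mem ha)
  calc b * (a * r * a⁻¹) = b * a * r * a⁻¹ := by group
    _ = a * (b * r) * a⁻¹ := by rw [h2]; group
    _ = a * (r * b) * a⁻¹ := by rw [h1]
    _ = a * r * (b * a⁻¹) := by group
    _ = a * r * (a⁻¹ * b) := by rw [h3]
    _ = a * r * a⁻¹ * b := by group

/-- A subgroup of index `p` whose fixed points on `R` are still moved by `A`. -/
theorem exists_hyperplane_moving [Finite G] [hp : Fact p.Prime] {A R : Subgroup G}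
    (hA : Cfsg.IsElementaryAbelian p A) (hR : (Nat.card R).Coprime p)
    (hAR : A ≤ normalizer (R : Set G)) (hne : ¬ A ≤ centralizer (R : Set G)) :
    ∃ B : Subgroup G, B < A ∧ Nat.card A ≤ Nat.card B * p ∧
      ¬ A ≤ centralizer ((R ⊓ centralizer (B : Set G) : Subgroup G) : Set G) := by
  obtain ⟨B, hB⟩ := (Set.toFinite
    {B : Subgroup G | B < A ∧ ¬ A ≤ centralizer ((R ⊓ centralizer (B : Set G) : Subgroup G) : Set G)}
    ).exists_maximal ⟨⊥, bot_lt_iff_ne_bot.2 (fun h => hne (h ▸ bot_le)), by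
      rwa [show R ⊓ centralizer ((⊥ : Subgroup G) : Set G) = R from
        inf_eq_left.2 fun r _ => mem_centralizer_iff.2 (by simp)]⟩
  obtain ⟨hBA, hBne⟩ := hB.prop
  refine ⟨B, hBA, ?_, hBne⟩
  set RB := R ⊓ centralizer (B : Set G) with hRB
  obtain ⟨x, hxA, hxB⟩ := SetLike.exists_of_lt hBA
  have hnorm : ∀ a ∈ A, a ∈ normalizer (B : Set G) := fun a ha =>
    centralizer_le_normalizer _ (centralizer_le hBA.le (Modules.comm_le_centralizer hA.1 ha))
  have htop : A ≤ B ⊔ zpowers x := by
    by_contra hne'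
    obtain ⟨y, hyA, hy⟩ := SetLike.not_le_iff_exists.1 hne'
    set D := closure ({x, y} : Set G) with hD
    have hDA : D ≤ A := (closure_le A).2 (by rintro z (rfl | rfl) <;> assumption)
    haveI : IsMulCommutative D := Modules.comm_mono hDA hA.1
    have hDc : ¬ IsCyclic D := by
      intro hc
      obtain ⟨g, hg⟩ := hc.exists_generator
      obtain ⟨i, hi⟩ := mem_zpowers_iff.1 (hg ⟨x, subset_closure (by simp)⟩)
      obtain ⟨j, hj⟩ := mem_zpowers_iff.1 (hg ⟨y, subset_closure (by simp)⟩)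
      have hi' : (g : G) ^ i = x := congrArg Subtype.val hi
      have hj' : (g : G) ^ j = y := congrArg Subtype.val hj
      have hgp : (g : G) ^ p = 1 := hA.2 _ (hDA g.2)
      have hpi : ¬ (p : ℤ) ∣ i := by
        rintro ⟨k, rfl⟩
        rw [zpow_mul, zpow_natCast, hgp, one_zpow] at hi'
        exact hxB (hi' ▸ one_mem B)
      have hgx : (g : G) ∈ zpowers x := mem_of_zpow_mem hgp hpi (hi' ▸ mem_zpowers x)
      exact hy (mem_sup_right (hj' ▸ zpow_mem hgx j))
    have hcop : (Nat.card D).Coprime (Nat.card RB) := by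
      obtain ⟨k, hk⟩ := IsPGroup.iff_card.1 ((Modules.elemAb_isPGroup hA).to_le hDA)
      rw [hk]
      exact (hR.coprime_dvd_left (card_dvd_of_le (inf_le_left : RB ≤ R))).symm.pow_left k
    have hgen := Coprime.iSup_centralizer_eq (A := D) (K := RB) hDc
      (hDA.trans (fixed_normalized hBA.le hA.1 hAR)) hcop
    apply hBne
    rw [le_centralizer_iff, ← hgen]
    refine iSup₂_le fun a ha => ?_
    obtain ⟨haD, ha1⟩ := ha
    have haA := hDA haD
    -- `a = x ^ i * y ^ j`
    obtain ⟨i, j, hij⟩ : ∃ i j : ℤ, a = x ^ i * y ^ j := by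
      have hxy : Commute x y := Modules.comm_iff.1 hA.1 x hxA y hyA
      clear ha1 haA
      induction haD using closure_induction with
      | mem z hz =>
        rcases hz with rfl | rfl
        · exact ⟨1, 0, by simp⟩
        · exact ⟨0, 1, by simp⟩
      | one => exact ⟨0, 0, by simp⟩
      | mul u v _ _ hu hv =>
        obtain ⟨i, j, rfl⟩ := hu
        obtain ⟨k, l, rfl⟩ := hv
        refine ⟨i + k, j + l, ?_⟩
        rw [zpow_add, zpow_add]
        have := (hxy.zpow_zpow k j).eq
        calc x ^ i * y ^ j * (x ^ k * y ^ l) = x ^ i * (y ^ j * x ^ k) * y ^ l := by group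
          _ = x ^ i * (x ^ k * y ^ j) * y ^ l := by rw [this]
          _ = x ^ i * x ^ k * (y ^ j * y ^ l) := by group
      | inv u _ hu =>
        obtain ⟨i, j, rfl⟩ := hu
        exact ⟨-i, -j, by rw [mul_inv_rev, ← zpow_neg, ← zpow_neg, (hxy.zpow_zpow (-i) (-j)).eq]⟩
    have haB : a ∉ B := by
      intro haB
      have hyj : y ^ j ∈ B ⊔ zpowers x := by
        rw [show y ^ j = (x ^ i)⁻¹ * a by rw [hij, inv_mul_cancel_left]]
        exact mul_mem (inv_mem (mem_sup_right (zpow_mem (mem_zpowers x) i))) (mem_sup_left haB)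
      have hpj : (p : ℤ) ∣ j := not_not.1 fun h => hy (mem_of_zpow_mem (hA.2 y hyA) h hyj)
      obtain ⟨l, rfl⟩ := hpj
      rw [zpow_mul, zpow_natCast, hA.2 y hyA, one_zpow, mul_one] at hij
      have hpi : (p : ℤ) ∣ i := not_not.1 fun h => hxB (mem_of_zpow_mem (hA.2 x hxA) h (hij ▸ haB))
      obtain ⟨m, rfl⟩ := hpi
      rw [zpow_mul, zpow_natCast, hA.2 x hxA, one_zpow] at hij
      exact ha1 hij
    have hBa : B ⊔ zpowers a < A := by
      refine lt_of_le_of_ne (sup_le hBA.le (zpowers_le.2 haA)) fun h => ?_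
      obtain ⟨b, hb, k, hk⟩ := exists_mul_zpow_of_mem_sup (hnorm a haA) (h.ge hxA)
      have hak : a ∈ B ⊔ zpowers x := by
        refine mem_of_zpow_mem (hA.2 a haA) (k := k) (fun hdvd => ?_) ?_
        · obtain ⟨l, rfl⟩ := hdvd
          rw [zpow_mul, zpow_natCast, hA.2 a haA, one_zpow, mul_one] at hk
          exact hxB (hk ▸ hb)
        · rw [show a ^ k = b⁻¹ * x by rw [hk, inv_mul_cancel_left]]
          exact mul_mem (mem_sup_left (inv_mem hb)) (mem_sup_right (mem_zpowers x))
      exact hy (sup_le le_sup_left (zpowers_le.2 hak) (h.ge hyA))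
    have hmem : A ≤ centralizer ((R ⊓ centralizer ((B ⊔ zpowers a : Subgroup G) : Set G) :
        Subgroup G) : Set G) := by
      by_contra hcon
      exact haB ((hB.2 ⟨hBa, hcon⟩ le_sup_left) (mem_sup_right (mem_zpowers a)))
    intro r hr
    obtain ⟨hrB, hra⟩ := Subgroup.mem_inf.1 hr
    obtain ⟨hrR, hrB'⟩ := Subgroup.mem_inf.1 hrB
    refine le_centralizer_iff.1 hmem (Subgroup.mem_inf.2 ⟨hrR, ?_⟩)
    have : B ⊔ zpowers a ≤ centralizer ({r} : Set G) := sup_le
      (fun b hb => mem_centralizer_singleton_iff.2 (mem_centralizer_iff.1 hrB' b hb))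
      (zpowers_le.2 (mem_centralizer_singleton_iff.2 (mem_centralizer_singleton_iff.1 hra).symm))
    exact mem_centralizer_iff.2 fun b hb => mem_centralizer_singleton_iff.1 (this hb)
  have hsurj : Function.Surjective (fun q : B × zpowers x =>
      (⟨(q.1 : G) * (q.2 : G), mul_mem (hBA.le q.1.2) (zpowers_le.2 hxA q.2.2)⟩ : A)) := by
    rintro ⟨g, hg⟩
    obtain ⟨b, hb, k, rfl⟩ := exists_mul_zpow_of_mem_sup (hnorm x hxA) (htop hg)
    exact ⟨(⟨b, hb⟩, ⟨x ^ k, zpow_mem (mem_zpowers x) k⟩), rfl⟩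
  refine (Nat.card_le_card_of_surjective _ hsurj).trans ?_
  rw [Nat.card_prod]
  refine Nat.mul_le_mul_left _ ?_
  rw [Nat.card_zpowers]
  exact Nat.le_of_dvd hp.out.pos (orderOf_dvd_of_pow_eq_one (hA.2 x hxA))

/-- `|A| · |C_V(A)| ≤ |V|`. -/
theorem card_mul_centralizer_le [Finite G] [hp : Fact p.Prime] {V A R : Subgroup G}
    (hV : Cfsg.IsElementaryAbelian p V) (hA : Cfsg.IsElementaryAbelian p A)
    (hR : (Nat.card R).Coprime p) (hAV : A ≤ normalizer (V : Set G))
    (hRV : R ≤ normalizer (V : Set G)) (hAR : A ≤ normalizer (R : Set G))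
    (hfA : A ⊓ centralizer (R : Set G) = ⊥) (hfR : R ⊓ centralizer (V : Set G) = ⊥) :
    Nat.card A * Nat.card ↥(V ⊓ centralizer (A : Set G)) ≤ Nat.card V := by
  induction hn : Nat.card A using Nat.strong_induction_on generalizing A with
  | _ n ih =>
  subst hn
  by_cases hA1 : A = ⊥
  · subst hA1
    rw [card_bot, one_mul]
    exact card_le_of_le inf_le_left
  obtain ⟨B, hBA, hcard, hmove⟩ := exists_hyperplane_moving hA hR hAR fun h =>
    hA1 (le_bot_iff.1 (hfA ▸ le_inf le_rfl h))
  have hB : Cfsg.IsElementaryAbelian p B := Modules.elemAb_mono hBA.le hA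
  have hih := ih _ (Set.ncard_lt_ncard hBA (Set.toFinite _)) hB (hBA.le.trans hAV)
    (hBA.le.trans hAR) (le_bot_iff.1 (hfA ▸ inf_le_inf_right _ hBA.le)) rfl
  set RB := R ⊓ centralizer (B : Set G) with hRB
  set CB := V ⊓ centralizer (B : Set G) with hCB
  set CA := V ⊓ centralizer (A : Set G) with hCA
  have hlt : CA < CB := by
    refine lt_of_le_of_ne (inf_le_inf_left _ (centralizer_le hBA.le)) fun heq => hmove ?_
    set T := ⁅RB, A⁆ with hT
    have hTR : T ≤ RB := Modules.commutator_le_of_normalizes (fixed_normalized hBA.le hA.1 hAR)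
    have hC1 : ⁅CB, RB⁆ ≤ CB := by
      refine Modules.commutator_le_of_normalizes fun r hr => ?_
      obtain ⟨hrR, hrB⟩ := Subgroup.mem_inf.1 hr
      refine mem_normalizer_fintype (S := ((CB : Subgroup G) : Set G)) fun v hv => ?_
      obtain ⟨hvV, hvB⟩ := Subgroup.mem_inf.1 hv
      refine Subgroup.mem_inf.2 ⟨(mem_normalizer_iff.1 (hRV hrR) v).1 hvV, ?_⟩
      exact mul_mem (mul_mem hrB hvB) (inv_mem hrB)
    have hC2 : ⁅CB, A⁆ = ⊥ := by
      rw [← heq]
      exact commutator_eq_bot_iff_le_centralizer.2 inf_le_right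
    have h0 : ⁅⁅RB, A⁆, CB⁆ = ⊥ := by
      refine commutator_commutator_eq_bot_of_rotate ?_ ?_
      · rw [commutator_comm A CB, hC2, commutator_bot_left]
      · exact le_bot_iff.1 ((commutator_mono hC1 le_rfl).trans_eq hC2)
    have hTV : T ≤ centralizer (V : Set G) := by
      refine Coprime.pxq_lemma (P := B) (Modules.elemAb_isPGroup hB)
        (hR.coprime_dvd_left (card_dvd_of_le (hTR.trans inf_le_left)))
        (Modules.elemAb_isPGroup hV) (hBA.le.trans hAV)
        ((hTR.trans inf_le_left).trans hRV) ?_ ?_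
      · exact le_centralizer_iff.1 (hTR.trans inf_le_right)
      · exact commutator_eq_bot_iff_le_centralizer.1 h0
    have hT1 : T = ⊥ := le_bot_iff.1 (hfR ▸ le_inf (hTR.trans inf_le_left) hTV)
    exact le_centralizer_iff.1 (commutator_eq_bot_iff_le_centralizer.1 hT1)
  have hCp : Nat.card CA * p ≤ Nat.card CB := by
    have h1 := Modules.card_mul_relIndex_of_le hlt.le
    obtain ⟨k, hk⟩ := IsPGroup.iff_card.1 ((Modules.elemAb_isPGroup hV).to_le
      (inf_le_left : CB ≤ V))
    have hdvd : CA.relIndex CB ∣ p ^ k := hk ▸ Dvd.intro_left _ h1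
    obtain ⟨i, -, hi⟩ := (Nat.dvd_prime_pow hp.out).1 hdvd
    rcases i with _ | i
    · exact absurd (relIndex_eq_one.1 (by simpa using hi)) hlt.not_ge
    · rw [← h1, hi]
      exact Nat.mul_le_mul_left _ (Nat.le_self_pow (Nat.succ_ne_zero i) p)
  calc Nat.card A * Nat.card CA ≤ Nat.card B * p * Nat.card CA := Nat.mul_le_mul_right _ hcard
    _ = Nat.card B * (Nat.card CA * p) := by ring
    _ ≤ Nat.card B * Nat.card CB := Nat.mul_le_mul_left _ hCp
    _ ≤ Nat.card V := hih

/-- The bound for a normal elementary abelian subgroup with `O_p(G / C(V)) = 1`. -/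
theorem relIndex_mul_centralizer_le [Finite G] [hp : Fact p.Prime] (hsep : Cfsg.IsPSolvable p G)
    {V : Subgroup G} [hVn : V.Normal] (hV : Cfsg.IsElementaryAbelian p V)
    (hO : Cfsg.pCore p (G ⧸ centralizer (V : Set G)) = ⊥) {A : Subgroup G}
    (hA : Cfsg.IsElementaryAbelian p A) :
    (centralizer (V : Set G)).relIndex A * Nat.card ↥(V ⊓ centralizer (A : Set G)) ≤ Nat.card V := by
  set C := centralizer (V : Set G) with hC
  have hker : C ≤ (MulAut.conjNormal : G →* MulAut V).ker := by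
    intro c hc
    rw [MonoidHom.mem_ker]
    ext v
    rw [MulAut.conjNormal_apply, MulAut.one_apply,
      ← mem_centralizer_iff.1 hc v v.2, mul_inv_cancel_right]
  let φ : G ⧸ C →* MulAut V := QuotientGroup.lift C MulAut.conjNormal hker
  have hφ : ∀ q : G ⧸ C, φ q = 1 → q = 1 := by
    intro q hq
    induction q using QuotientGroup.induction_on with
    | _ g =>
      rw [QuotientGroup.eq_one_iff, hC, mem_centralizer_iff]
      intro v hv
      have h1 := congrArg (fun e : MulAut V => ((e ⟨v, hv⟩ : V) : G)) hq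
      simp only [φ, QuotientGroup.lift_mk, MulAut.conjNormal_apply, MulAut.one_apply] at h1
      exact (mul_inv_eq_iff_eq_mul.1 h1).symm
  let Γ := V ⋊[φ] (G ⧸ C)
  haveI : Finite Γ := Finite.of_equiv _ SemidirectProduct.equivProd.symm
  let il : V →* Γ := SemidirectProduct.inl
  let ir : G ⧸ C →* Γ := SemidirectProduct.inr
  set V' := il.range with hV'
  set Ab := A.map (QuotientGroup.mk' C) with hAb
  set A' := Ab.map ir with hA'
  set R := Cfsg.pPrimeCore p (G ⧸ C) with hR
  set R' := R.map ir with hR'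
  haveI : V'.Normal := by
    rw [hV', show il = SemidirectProduct.inl from rfl, SemidirectProduct.range_inl_eq_ker_rightHom]
    infer_instance
  have hV'e : Cfsg.IsElementaryAbelian p V' := by
    rw [hV', MonoidHom.range_eq_map]
    refine Modules.elemAb_map il ⟨?_, fun v _ => Subtype.ext (by simpa using hV.2 v v.2)⟩
    exact Modules.comm_iff.2 fun a _ b _ => Subtype.ext (Modules.comm_iff.1 hV.1 a a.2 b b.2)
  have hA'e : Cfsg.IsElementaryAbelian p A' := Modules.elemAb_map _ (Modules.elemAb_map _ hA)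
  have hR'c : (Nat.card R').Coprime p := by
    rw [hR', card_map_of_injective SemidirectProduct.inr_injective]
    exact Cores.pPrimeCore_coprime
  have hnormV : ∀ K : Subgroup Γ, K ≤ normalizer (V' : Set Γ) := fun K g _ => by
    rw [normalizer_eq_top]; trivial
  have hA'R : A' ≤ normalizer (R' : Set Γ) := by
    refine (map_mono ?_).trans (le_normalizer_map ir)
    intro g _
    rw [normalizer_eq_top]; trivial
  have hfA : A' ⊓ centralizer (R' : Set Γ) = ⊥ := by
    refine eq_bot_iff.2 fun g hg => mem_bot.2 ?_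
    obtain ⟨hg1, hg2⟩ := Subgroup.mem_inf.1 hg
    obtain ⟨q, hq, rfl⟩ := hg1
    have hqR : q ∈ R := PSolv.centralizer_pPrimeCore_le (PSolv.isPSolvable_quotient hsep C) hO
      (mem_centralizer_iff.2 fun r hr => SemidirectProduct.inr_injective (by
        rw [map_mul, map_mul]
        exact mem_centralizer_iff.1 hg2 _ (mem_map_of_mem ir hr)))
    have hq1 : q = 1 := by
      refine orderOf_eq_one_iff.1 (Nat.eq_one_of_dvd_coprimes
        (Cores.pPrimeCore_coprime (G := G ⧸ C) (p := p)) ?_ ?_)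
      · exact (Subgroup.orderOf_mk q hqR) ▸ orderOf_dvd_natCard _
      · exact orderOf_dvd_of_pow_eq_one ((Modules.elemAb_map _ hA).2 q hq)
    rw [hq1, map_one]
  have hfR : R' ⊓ centralizer (V' : Set Γ) = ⊥ := by
    refine eq_bot_iff.2 fun g hg => mem_bot.2 ?_
    obtain ⟨hg1, hg2⟩ := Subgroup.mem_inf.1 hg
    obtain ⟨q, hq, rfl⟩ := hg1
    rw [hφ q ?_, map_one]
    ext v
    have h1 := mem_centralizer_iff.1 hg2 (il v) ⟨v, rfl⟩
    have h2 : il (φ q v) = il v := by
      show SemidirectProduct.inl (φ q v) = _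
      rw [SemidirectProduct.inl_aut, ← h1, map_inv, mul_inv_cancel_right]
    rw [SemidirectProduct.inl_injective h2, MulAut.one_apply]
  have h := card_mul_centralizer_le hV'e hA'e hR'c (hnormV _) (hnormV _) hA'R hfA hfR
  have hcA : Nat.card A' = C.relIndex A := by
    rw [hA', card_map_of_injective SemidirectProduct.inr_injective, hAb,
      PSolv.card_map_mk_eq_relIndex]
  have hcV : Nat.card V' = Nat.card V := by
    rw [hV', MonoidHom.range_eq_map, card_map_of_injective SemidirectProduct.inl_injective, card_top]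
  rw [hcA, hcV] at h
  refine le_trans (Nat.mul_le_mul_left _ ?_) h
  let j : ↥(V ⊓ centralizer (A : Set G)) →* ↥(V' ⊓ centralizer (A' : Set Γ)) :=
    (il.comp (Subgroup.inclusion inf_le_left)).codRestrict _ fun v => by
      refine Subgroup.mem_inf.2 ⟨⟨_, rfl⟩, mem_centralizer_iff.2 ?_⟩
      rintro _ ⟨_, ⟨a, ha, rfl⟩, rfl⟩
      have h1 : φ (QuotientGroup.mk' C a) (Subgroup.inclusion inf_le_left v) =
          Subgroup.inclusion inf_le_left v := by
        refine Subtype.ext ?_
        show ((MulAut.conjNormal a (Subgroup.inclusion inf_le_left v) : V) : G) = _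
        rw [MulAut.conjNormal_apply, Subgroup.coe_inclusion,
          mem_centralizer_iff.1 (Subgroup.mem_inf.1 v.2).2 a ha, mul_inv_cancel_right]
      have h2 := SemidirectProduct.inl_aut (φ := φ) (QuotientGroup.mk' C a)
        (Subgroup.inclusion inf_le_left v)
      rw [h1, map_inv] at h2
      exact (eq_mul_inv_iff_mul_eq.1 h2).symm
  refine Nat.card_le_card_of_injective j fun a b hab => ?_
  exact Subtype.ext (congrArg Subtype.val (SemidirectProduct.inl_injective (congrArg Subtype.val hab)) :)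

/-- `J(G)` moves `Ω₁(Z(J(C(V))))` only inside `V`. -/
theorem commutator_thompson_le [Finite G] [hp : Fact p.Prime] (hsep : Cfsg.IsPSolvable p G)
    {V : Subgroup G} [hVn : V.Normal] (hV : Cfsg.IsElementaryAbelian p V)
    (hO : Cfsg.pCore p (G ⧸ centralizer (V : Set G)) = ⊥) :
    ⁅Cfsg.omegaOne p (Cfsg.centerThompsonOf p (centralizer (V : Set G))),
      Cfsg.thompsonSubgroup p G⁆ ≤ V := by
  set C := centralizer (V : Set G) with hC
  set W := Cfsg.omegaOne p (Cfsg.centerThompsonOf p C) with hW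
  set π := QuotientGroup.mk' V with hπ
  have key : Cfsg.thompsonSubgroup p G ≤ (centralizer ((W.map π : Subgroup _) : Set _)).comap π := by
    refine sSup_le fun A hA => ?_
    obtain ⟨hAe, hAmax⟩ := hA
    have hVC : V ≤ C := Modules.comm_le_centralizer hV.1
    set A' := (A ⊓ C) ⊔ V with hA'
    have hA'e : Cfsg.IsElementaryAbelian p A' :=
      Modules.elemAb_sup (Modules.elemAb_mono inf_le_left hAe) hV
        (le_centralizer_iff.1 inf_le_right)
    have hge : Nat.card A ≤ Nat.card A' := by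
      have h1 := Modules.card_mul_card_le (A ⊓ C) V
      have h2 := relIndex_mul_centralizer_le hsep hV hO hAe
      have h3 : Nat.card ↥((A ⊓ C) ⊓ V) ≤ Nat.card ↥(V ⊓ centralizer (A : Set G)) :=
        card_le_of_le fun x hx => Subgroup.mem_inf.2
          ⟨hx.2, Modules.elemAb_le_centralizer hAe hx.1.1⟩
      have h4 := Modules.card_mul_relIndex_of_le (inf_le_left : A ⊓ C ≤ A)
      rw [inf_comm A C, inf_relIndex_right, inf_comm C A] at h4
      have hpos : 0 < Nat.card ↥(V ⊓ centralizer (A : Set G)) := Nat.card_pos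
      refine Nat.le_of_mul_le_mul_right ?_ hpos
      calc Nat.card A * Nat.card ↥(V ⊓ centralizer (A : Set G))
          = Nat.card ↥(A ⊓ C) * (C.relIndex A * Nat.card ↥(V ⊓ centralizer (A : Set G))) := by
            rw [← h4]; ring
        _ ≤ Nat.card ↥(A ⊓ C) * Nat.card V := Nat.mul_le_mul_left _ h2
        _ ≤ Nat.card A' * Nat.card ↥((A ⊓ C) ⊓ V) := h1
        _ ≤ Nat.card A' * Nat.card ↥(V ⊓ centralizer (A : Set G)) := Nat.mul_le_mul_left _ h3
    have hA'mem : A' ∈ Modules.maxElemAbIn p C :=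
      ⟨sup_le inf_le_right hVC, hA'e, fun B _ hB => (hAmax B hB).trans hge⟩
    have hWA : W ≤ A' := by
      rw [hW, Modules.omegaOne_centerThompsonOf_eq]
      exact sInf_le hA'mem
    intro a ha
    rw [mem_comap, mem_centralizer_iff]
    rintro _ ⟨w, hw, rfl⟩
    have hw' := mem_map_of_mem π (hWA hw)
    rw [hA', Subgroup.map_sup, hπ, QuotientGroup.map_mk'_self, sup_bot_eq] at hw'
    obtain ⟨c, hc, hce⟩ := hw'
    rw [← hπ] at hce
    rw [← hce, ← map_mul, ← map_mul, Modules.comm_iff.1 hAe.1 c hc.1 a ha]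
  refine commutator_le.2 fun w hw a ha => ?_
  rw [← QuotientGroup.ker_mk' V, MonoidHom.mem_ker, ← hπ, map_commutatorElement,
    commutatorElement_eq_one_iff_mul_comm]
  exact mem_centralizer_iff.1 (key ha) _ (mem_map_of_mem π hw)

end Cfsg.Agent.Stability
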