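import Cfsg.Agent.FF.Structure
import Cfsg.Agent.Coprime.Action

/-!
A `q`-group acting on a failure of factorization configuration, `q` not dividing the order: the
fixed points realize every block.
-/

set_option autoImplicit false

open Cfsg
open scoped IsMulCommutative MatrixGroups commutatorElement

namespace Cfsg.Agent.Stability.FixedBlocks

variable {G : Type*} [Group G]

/-- The product of the conjugates under `A` of an element of a commutative invariant subgroup. -/
noncomputable def oprod (A Y : Subgroup G) [Fintype A] [IsMulCommutative Y]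
    (hY : A ≤ Subgroup.normalizer (Y : Set G)) : Y →* Y :=
  MonoidHom.mk' (fun y => ∏ a : A, Y.normalizerMonoidHom (Subgroup.inclusion hY a) y)
    (fun y z => by simp only [map_mul, Finset.prod_mul_distrib])

section

variable (A Y : Subgroup G) [Fintype A] [IsMulCommutative Y]
  (hY : A ≤ Subgroup.normalizer (Y : Set G))

theorem coe_act (a : A) (y : Y) :
    ((Y.normalizerMonoidHom (Subgroup.inclusion hY a) y : Y) : G) = a * y * (a : G)⁻¹ := rfl

theorem oprod_mem_centralizer (y : Y) :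
    (oprod A Y hY y : G) ∈ Subgroup.centralizer (A : Set G) := by
  rw [Subgroup.mem_centralizer_iff]
  intro b hb
  have h : Y.normalizerMonoidHom (Subgroup.inclusion hY ⟨b, hb⟩) (oprod A Y hY y) =
      oprod A Y hY y := by
    simp only [oprod, MonoidHom.mk'_apply, map_prod]
    refine Fintype.prod_equiv (Equiv.mulLeft ⟨b, hb⟩) _ _ fun a => ?_
    rw [Equiv.coe_mulLeft, map_mul (Subgroup.inclusion hY), map_mul Y.normalizerMonoidHom,
      MulAut.mul_apply]
  have h' := congrArg (Subtype.val : Y → G) h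
  rw [coe_act] at h'
  exact mul_inv_eq_iff_eq_mul.1 h'

/-- The component of `oprod`: `|A ∩ S|` copies of `y`, the rest lies in `N`. -/
theorem oprod_coset (y : Y) (S N : Subgroup G)
    (hS : ∀ a ∈ A, a ∈ S → a * (y : G) * a⁻¹ = y)
    (hT : ∀ a ∈ A, a ∉ S → a * (y : G) * a⁻¹ ∈ N) :
    ((y : G) ^ Nat.card ↥(A ⊓ S))⁻¹ * oprod A Y hY y ∈ N := by
  classical
  set f : A → Y := fun a => Y.normalizerMonoidHom (Subgroup.inclusion hY a) y with hf
  set P := ∏ a ∈ Finset.univ.filter (fun a : A => (a : G) ∈ S), f a with hP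
  set Q := ∏ a ∈ Finset.univ.filter (fun a : A => ¬ (a : G) ∈ S), f a with hQ
  have h1 : P = y ^ Nat.card ↥(A ⊓ S) := by
    rw [hP, Finset.prod_eq_pow_card (b := y) (fun a ha => Subtype.ext (by
      rw [hf, coe_act]
      exact hS a a.2 (Finset.mem_filter.1 ha).2))]
    congr 1
    rw [← Fintype.card_subtype, ← Nat.card_eq_fintype_card]
    exact Nat.card_congr (Equiv.subtypeSubtypeEquivSubtypeInter _ _)
  have h2 : Q ∈ N.subgroupOf Y := Subgroup.prod_mem _ fun a ha =>
    Subgroup.mem_subgroupOf.2 (by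
      rw [hf, coe_act]
      exact hT a a.2 (Finset.mem_filter.1 ha).2)
  have h3 : oprod A Y hY y = P * Q := by
    rw [hP, hQ, Finset.prod_filter_mul_prod_filter_not]
    rfl
  rw [h3, h1, Subgroup.coe_mul, SubgroupClass.coe_pow, inv_mul_cancel_left]
  exact h2

end

variable [Finite G] {p q : ℕ} [hp : Fact p.Prime] [hq : Fact q.Prime] {V H A L : Subgroup G}

/-- A `q`-group of operators. -/
structure Act (q : ℕ) {G : Type*} [Group G] (V H A : Subgroup G) : Prop where
  normV : A ≤ Subgroup.normalizer (V : Set G)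
  normH : A ≤ Subgroup.normalizer (H : Set G)
  pgroup : IsPGroup q A
  ndvd : ¬ q ∣ Nat.card H

theorem line_conj (h : FF.Hyp p V H) (hL : FF.IsLine p V H L) {g : G}
    (hgV : g ∈ Subgroup.normalizer (V : Set G)) (hgH : g ∈ Subgroup.normalizer (H : Set G)) :
    FF.IsLine p V H (L.map (MulAut.conj g).toMonoidHom) := by
  have hle : L.map (MulAut.conj g).toMonoidHom ≤ H := by
    rw [← FF.map_conj_eq hgH]
    exact Subgroup.map_mono hL.le
  have hc : Nat.card (L.map (MulAut.conj g).toMonoidHom) = p := by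
    rw [Subgroup.card_map_of_injective (MulAut.conj g).injective, hL.card]
  refine ⟨hle, (h.bestOffender_iff hle).2 ⟨Modules.elemAb_map _ (h.elemAb hL.le hL.off), ?_⟩, hc⟩
  rw [hc, ← FF.map_conj_inf_centralizer hgV,
    Subgroup.card_map_of_injective (MulAut.conj g).injective]
  conv_rhs => rw [← ((h.bestOffender_iff hL.le).1 hL.off).2, hL.card]

omit hp in
theorem map_eblock {g : G} (hgH : g ∈ Subgroup.normalizer (H : Set G)) :
    (FF.eblock p H L).map (MulAut.conj g).toMonoidHom =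
      FF.eblock p H (L.map (MulAut.conj g).toMonoidHom) := by
  haveI := PSolv.pPrimeCore_characteristic p H
  have hQ : g ∈ Subgroup.normalizer (FF.qcore p H : Set G) :=
    Coprime.normalizer_le_normalizer_map_characteristic H (pPrimeCore p H) hgH
  change (⁅FF.qcore p H, L⁆ ⊔ L).map _ = ⁅FF.qcore p H, _⁆ ⊔ _
  rw [Subgroup.map_sup, Subgroup.map_commutator, FF.map_conj_eq hQ]

theorem card_eblock_coprime (h : FF.GenHyp p V H) (hL : FF.IsLine p V H L) (hA : Act q V H A) :
    ¬ q ∣ p * (p - 1) * (p + 1) := fun hd =>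
  hA.ndvd (hd.trans (h.toHyp.card_eblock hL ▸ Subgroup.card_dvd_of_le (FF.eblock_le_H hL)))

/-- An operator fixing a block centralizes it and its plane. -/
theorem centralizes_of_normalizes (h : FF.GenHyp p V H) (hL : FF.IsLine p V H L)
    (hA : Act q V H A) {a : G} (haA : a ∈ A)
    (haE : a ∈ Subgroup.normalizer (FF.eblock p H L : Set G)) :
    a ∈ Subgroup.centralizer (FF.eblock p H L : Set G) ∧
      a ∈ Subgroup.centralizer (FF.bplane p V H L : Set G) := by
  set E := FF.eblock p H L with hE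
  set W := FF.bplane p V H L with hW
  have haW : a ∈ Subgroup.normalizer (W : Set G) := by
    rw [Subgroup.mem_normalizer_iff_map_conj_eq]
    change (FF.bplane p V H L).map (MulAut.conj a).toMonoidHom = _
    rw [FF.map_conj_commutator (hA.normV haA), FF.map_conj_eq haE]
  have hWc : a ∈ Subgroup.centralizer (W : Set G) := by
    have hpp := hp.out
    set Z := Subgroup.zpowers a with hZ
    have hZn : Z ≤ Subgroup.normalizer (W : Set G) := Subgroup.zpowers_le.2 haW
    letI : MulAction Z W :=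
      MulAction.compHom W (W.normalizerMonoidHom.comp (Subgroup.inclusion hZn))
    have hsmul : ∀ (z : Z) (w : W), ((z • w : W) : G) = z * w * (z : G)⁻¹ := fun _ _ => rfl
    have hmod := (hA.pgroup.to_le (Subgroup.zpowers_le.2 haA : Z ≤ A)).card_modEq_card_fixedPoints W
    set F := W ⊓ Subgroup.centralizer (Z : Set G) with hF
    have hfix : Nat.card (MulAction.fixedPoints Z W) = Nat.card F := by
      refine Nat.card_congr
        { toFun := fun w => ⟨(w.1 : G), Subgroup.mem_inf.2 ⟨w.1.2,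
            Subgroup.mem_centralizer_iff.2 fun z hz => ?_⟩⟩
          invFun := fun w => ⟨⟨w.1, w.2.1⟩, fun z => Subtype.ext ?_⟩
          left_inv := fun w => rfl
          right_inv := fun w => rfl }
      · have := congrArg Subtype.val (w.2 ⟨z, hz⟩)
        rw [hsmul] at this
        exact mul_inv_eq_iff_eq_mul.1 this
      · rw [hsmul]
        exact mul_inv_eq_iff_eq_mul.2 (Subgroup.mem_centralizer_iff.1 w.2.2 z z.2)
    rw [hfix, (h.toHyp.block_module hL).1] at hmod
    obtain ⟨i, hi2, hi⟩ := (Nat.dvd_prime_pow hpp).1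
      ((h.toHyp.block_module hL).1 ▸ Subgroup.card_dvd_of_le (inf_le_left : F ≤ W))
    have hFW : F = W := by
      by_contra hne
      have hi1 : i ≠ 2 := by
        rintro rfl
        exact hne (Subgroup.eq_of_le_of_card_ge inf_le_left
          (by rw [hi]; exact (h.toHyp.block_module hL).1.le))
      have hle : Nat.card F ≤ p ^ 2 := by rw [hi]; exact Nat.pow_le_pow_right hpp.pos hi2
      have hdvd : q ∣ p ^ 2 - Nat.card F := (Nat.modEq_iff_dvd' hle).1 hmod.symm
      apply card_eblock_coprime h hL hA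
      refine hdvd.trans ?_
      rw [hi]
      obtain ⟨r, rfl⟩ : ∃ r, p = r + 1 := ⟨p - 1, by have := hpp.pos; omega⟩
      rcases (by omega : i = 0 ∨ i = 1) with rfl | rfl
      · refine ⟨r + 1, ?_⟩
        rw [show (r + 1) ^ 2 - (r + 1) ^ 0 = r * (r + 2) by
          have : (r + 1) ^ 2 = r * (r + 2) + 1 := by ring
          rw [pow_zero]; omega, Nat.add_sub_cancel]
        ring
      · refine ⟨r + 2, ?_⟩
        rw [show (r + 1) ^ 2 - (r + 1) ^ 1 = (r + 1) * r by
          have : (r + 1) ^ 2 = (r + 1) * r + (r + 1) := by ring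
          rw [pow_one]; omega, Nat.add_sub_cancel]
    rw [Subgroup.mem_centralizer_iff]
    intro w hw
    exact (Subgroup.mem_centralizer_iff.1 (hFW.ge hw).2 a (Subgroup.mem_zpowers a)).symm
  refine ⟨Subgroup.mem_centralizer_iff.2 fun e he => ?_, hWc⟩
  have h1 : ⁅e, a⁆ ∈ E := by
    rw [commutatorElement_def, show e * a * e⁻¹ * a⁻¹ = e * (a * e⁻¹ * a⁻¹) by group]
    exact mul_mem he ((Subgroup.mem_normalizer_iff.1 haE _).1 (inv_mem he))
  have h2 : ⁅e, a⁆ ∈ Subgroup.centralizer (W : Set G) :=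
    FF.commutatorElement_mem_centralizer
      (Modules.normalizes_commutator (h.toHyp.eblock_le_normalizer_V hL) he) hWc
  exact commutatorElement_eq_one_iff_mul_comm.1
    (Subgroup.mem_bot.1 ((h.toHyp.block_module hL).2.2.2 ▸ Subgroup.mem_inf.2 ⟨h1, h2⟩))

/-- Every element of a block agrees, on the block, with a fixed point of the operators. -/
theorem exists_fixed (h : FF.GenHyp p V H) (hL : FF.IsLine p V H L) (hA : Act q V H A) {e : G}
    (he : e ∈ FF.eblock p H L) :
    ∃ δ ∈ H ⊓ Subgroup.centralizer (A : Set G),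
      e⁻¹ * δ ∈ H ⊓ Subgroup.centralizer (FF.bplane p V H L : Set G) := by
  classical
  haveI : Fintype A := Fintype.ofFinite A
  set E := FF.eblock p H L with hE
  set N := H ⊓ Subgroup.centralizer (FF.bplane p V H L : Set G)
  set m := Nat.card ↥(A ⊓ Subgroup.normalizer (E : Set G)) with hm
  have hcop : (Nat.card E).Coprime m := by
    obtain ⟨k, hk⟩ := IsPGroup.iff_card.1 (hA.pgroup.to_le
      (inf_le_left : A ⊓ Subgroup.normalizer (E : Set G) ≤ A))
    rw [hm, hk]
    exact ((hq.out.coprime_iff_not_dvd.2 fun hd => hA.ndvd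
      (hd.trans (Subgroup.card_dvd_of_le (FF.eblock_le_H hL)))).pow_left k).symm
  obtain ⟨x, hx⟩ := (powCoprime hcop).surjective ⟨e, he⟩
  have hxe : (x : G) ^ m = e := congrArg Subtype.val hx
  have hxH : (x : G) ∈ H := FF.eblock_le_H hL x.2
  set O : Set G := {y | ∃ a ∈ A, a * (x : G) * a⁻¹ = y} with hO
  have hmem : ∀ a ∈ A, a * (x : G) * a⁻¹ ∈ (E.map (MulAut.conj a).toMonoidHom) :=
    fun a _ => ⟨x, x.2, rfl⟩
  have hEa : ∀ a ∈ A, E.map (MulAut.conj a).toMonoidHom =
      FF.eblock p H (L.map (MulAut.conj a).toMonoidHom) := fun a ha => map_eblock (hA.normH ha)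
  have hLa : ∀ a ∈ A, FF.IsLine p V H (L.map (MulAut.conj a).toMonoidHom) := fun a ha =>
    line_conj h.toHyp hL (hA.normV ha) (hA.normH ha)
  have hcomm : ∀ y ∈ O, ∀ z ∈ O, y * z = z * y := by
    rintro _ ⟨a, ha, rfl⟩ _ ⟨b, hb, rfl⟩
    by_cases hab : E.map (MulAut.conj a).toMonoidHom = E.map (MulAut.conj b).toMonoidHom
    · have hn : b⁻¹ * a ∈ Subgroup.normalizer (E : Set G) := by
        rw [Subgroup.mem_normalizer_iff_map_conj_eq]
        refine Subgroup.map_injective (f := (MulAut.conj b).toMonoidHom) (MulEquiv.injective _) ?_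
        rw [Subgroup.map_map]
        convert hab using 2
        refine MonoidHom.ext fun z => ?_
        simp [mul_assoc]
      have hfix := Subgroup.mem_centralizer_iff.1
        (centralizes_of_normalizes h hL hA (mul_mem (inv_mem hb) ha) hn).1 x x.2
      have : a * (x : G) * a⁻¹ = b * (x : G) * b⁻¹ := by
        calc a * (x : G) * a⁻¹ = b * ((b⁻¹ * a) * x) * a⁻¹ := by group
          _ = b * ((x : G) * (b⁻¹ * a)) * a⁻¹ := by rw [hfix]
          _ = b * (x : G) * b⁻¹ := by group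
      rw [this]
    · rw [hEa a ha, hEa b hb] at hab
      exact commutatorElement_eq_one_iff_mul_comm.1 (Subgroup.mem_bot.1
        ((h.toHyp.eblock_commute (hLa a ha) (hLa b hb) hab) ▸ Subgroup.commutator_mem_commutator
          (hEa a ha ▸ hmem a ha) (hEa b hb ▸ hmem b hb)))
  set Y := Subgroup.closure O with hYdef
  haveI : IsMulCommutative Y := Subgroup.isMulCommutative_closure hcomm
  have hY : A ≤ Subgroup.normalizer (Y : Set G) := by
    refine Subgroup.le_normalizer_iff.2 fun b hb y hy => ?_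
    have h1 : Y.map (MulAut.conj b).toMonoidHom ≤ Y := by
      rw [hYdef, MonoidHom.map_closure]
      refine Subgroup.closure_mono ?_
      rintro _ ⟨_, ⟨a, ha, rfl⟩, rfl⟩
      refine ⟨b * a, mul_mem hb ha, ?_⟩
      change b * a * (x : G) * (b * a)⁻¹ = b * (a * x * a⁻¹) * b⁻¹
      group
    exact h1 ⟨y, hy, rfl⟩
  have hxY : (x : G) ∈ Y := Subgroup.subset_closure ⟨1, one_mem A, by group⟩
  have hYH : Y ≤ H := (Subgroup.closure_le H).2 (by
    rintro _ ⟨a, ha, rfl⟩
    exact (Subgroup.mem_normalizer_iff.1 (hA.normH ha) _).1 hxH)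
  have hcos := oprod_coset A Y hY ⟨x, hxY⟩ (Subgroup.normalizer (E : Set G)) N
    (fun a ha hn => mul_inv_eq_iff_eq_mul.2
      (Subgroup.mem_centralizer_iff.1 (centralizes_of_normalizes h hL hA ha hn).1 x x.2).symm)
    (fun a ha hn => Subgroup.mem_inf.2 ⟨(Subgroup.mem_normalizer_iff.1 (hA.normH ha) _).1 hxH, by
      refine h.toHyp.eblock_le_centralizer_bplane (hLa a ha) hL ?_ (hEa a ha ▸ hmem a ha)
      rw [← hEa a ha]
      exact fun e' => hn (Subgroup.mem_normalizer_iff_map_conj_eq.2 e')⟩)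
  refine ⟨_, Subgroup.mem_inf.2 ⟨hYH (oprod A Y hY ⟨x, hxY⟩).2,
    oprod_mem_centralizer A Y hY _⟩, ?_⟩
  rwa [← hm, hxe] at hcos

/-- The fixed points in `V` contain a copy of each plane. -/
theorem exists_fixed_plane (h : FF.GenHyp p V H) (hL : FF.IsLine p V H L) (hA : Act q V H A) :
    ∃ W' : Subgroup G, W' ≤ V ⊓ Subgroup.centralizer (A : Set G) ∧ Nat.card W' = p ^ 2 ∧
      H ⊓ Subgroup.centralizer (A : Set G) ≤ Subgroup.normalizer (W' : Set G) ∧
      ∀ g ∈ H ⊓ Subgroup.centralizer (A : Set G), (g ∈ Subgroup.centralizer (W' : Set G) ↔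
        g ∈ Subgroup.centralizer (FF.bplane p V H L : Set G)) := by
  classical
  haveI : Fintype A := Fintype.ofFinite A
  haveI : IsMulCommutative V := h.elem.1
  set E := FF.eblock p H L with hE
  set W := FF.bplane p V H L with hW
  have hWV : W ≤ V := h.toHyp.bplane_le hL
  set m := Nat.card ↥(A ⊓ Subgroup.normalizer (E : Set G)) with hm
  have hLa : ∀ a ∈ A, FF.IsLine p V H (L.map (MulAut.conj a).toMonoidHom) := fun a ha =>
    line_conj h.toHyp hL (hA.normV ha) (hA.normH ha)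
  let τ : W →* G := (V.subtype.comp (oprod A V hA.normV)).comp (Subgroup.inclusion hWV)
  have hcos : ∀ w : W, ((w : G) ^ m)⁻¹ * τ w ∈ FF.bfixed p V H L := by
    intro w
    refine oprod_coset A V hA.normV ⟨w, hWV w.2⟩ (Subgroup.normalizer (E : Set G)) _ ?_ ?_
    · intro a ha hn
      exact mul_inv_eq_iff_eq_mul.2
        (Subgroup.mem_centralizer_iff.1 (centralizes_of_normalizes h hL hA ha hn).2 w w.2).symm
    · intro a ha hn
      refine h.toHyp.bplane_le_bfixed hL (hLa a ha) (fun e' => hn ?_) ?_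
      · rw [Subgroup.mem_normalizer_iff_map_conj_eq]
        exact (map_eblock (hA.normH ha)).trans e'.symm
      · change a * (w : G) * a⁻¹ ∈ ⁅V, FF.eblock p H (L.map (MulAut.conj a).toMonoidHom)⁆
        rw [← map_eblock (hA.normH ha), ← FF.map_conj_commutator (hA.normV ha)]
        exact ⟨w, w.2, rfl⟩
  have hcop : (Nat.card W).Coprime m := by
    obtain ⟨k, hk⟩ := IsPGroup.iff_card.1 (hA.pgroup.to_le
      (inf_le_left : A ⊓ Subgroup.normalizer (E : Set G) ≤ A))
    rw [hm, hk, (h.toHyp.block_module hL).1]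
    refine ((Nat.coprime_primes hp.out hq.out).2 ?_).pow 2 k
    rintro rfl
    exact card_eblock_coprime h hL hA (Dvd.dvd.mul_right (Dvd.dvd.mul_right dvd_rfl _) _)
  have hinj : Function.Injective τ := by
    rw [← MonoidHom.ker_eq_bot_iff, eq_bot_iff]
    intro w hw
    have h1 := hcos w
    rw [MonoidHom.mem_ker.1 hw, mul_one] at h1
    have h2 : (w : G) ^ m ∈ W ⊓ FF.bfixed p V H L :=
      Subgroup.mem_inf.2 ⟨pow_mem w.2 m, by simpa using inv_mem h1⟩
    replace h2 := (h.toHyp.block_module hL).2.1.le h2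
    rw [Subgroup.mem_bot] at h2
    have h3 : w ^ m = 1 := Subtype.ext (by simpa using h2)
    rw [Subgroup.mem_bot]
    exact (powCoprime hcop).injective (show powCoprime hcop w = powCoprime hcop 1 by
      simp [powCoprime_apply, h3])
  have hequiv : ∀ g ∈ H ⊓ Subgroup.centralizer (A : Set G), ∀ w : W, ∃ hgw : g * (w : G) * g⁻¹ ∈ W,
      g * τ w * g⁻¹ = τ ⟨_, hgw⟩ := by
    intro g hg w
    obtain ⟨hgH, hgA⟩ := Subgroup.mem_inf.1 hg
    have hgV : g ∈ Subgroup.normalizer (V : Set G) := h.norm hgH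
    have hgw : g * (w : G) * g⁻¹ ∈ W :=
      (Subgroup.mem_normalizer_iff.1 (h.le_normalizer_bplane hL hgH) _).1 w.2
    refine ⟨hgw, ?_⟩
    let ψ := V.normalizerMonoidHom ⟨g, hgV⟩
    have h1 : ψ (oprod A V hA.normV ⟨w, hWV w.2⟩) = oprod A V hA.normV ⟨_, hWV hgw⟩ := by
      simp only [oprod, MonoidHom.mk'_apply, map_prod]
      refine Finset.prod_congr rfl fun a _ => Subtype.ext ?_
      change g * (a * (w : G) * (a : G)⁻¹) * g⁻¹ = a * (g * (w : G) * g⁻¹) * (a : G)⁻¹
      have hc : (a : G) * g = g * a := Subgroup.mem_centralizer_iff.1 hgA a a.2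
      have hc' : (a : G)⁻¹ * g⁻¹ = g⁻¹ * (a : G)⁻¹ := by rw [← mul_inv_rev, ← mul_inv_rev, hc]
      calc g * (a * (w : G) * (a : G)⁻¹) * g⁻¹ = (g * a) * w * ((a : G)⁻¹ * g⁻¹) := by group
        _ = (a * g) * w * (g⁻¹ * (a : G)⁻¹) := by rw [hc, hc']
        _ = a * (g * (w : G) * g⁻¹) * (a : G)⁻¹ := by group
    exact congrArg Subtype.val h1
  refine ⟨τ.range, ?_, ?_, ?_, ?_⟩
  · rintro _ ⟨w, rfl⟩
    exact Subgroup.mem_inf.2 ⟨(oprod A V hA.normV _).2, oprod_mem_centralizer A V hA.normV _⟩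
  · rw [← (h.toHyp.block_module hL).1]
    exact (Nat.card_congr (MonoidHom.ofInjective hinj).toEquiv).symm
  · refine Subgroup.le_normalizer_iff.2 ?_
    rintro g hg _ ⟨w, rfl⟩
    obtain ⟨hgw, he⟩ := hequiv g hg w
    exact ⟨_, he.symm⟩
  · intro g hg
    rw [Subgroup.mem_centralizer_iff, Subgroup.mem_centralizer_iff]
    constructor
    · intro hc w hw
      obtain ⟨hgw, he⟩ := hequiv g hg ⟨w, hw⟩
      have h1 : τ ⟨g * w * g⁻¹, hgw⟩ = τ ⟨w, hw⟩ :=
        he.symm.trans (mul_inv_eq_iff_eq_mul.2 (hc _ ⟨⟨w, hw⟩, rfl⟩).symm)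
      exact (mul_inv_eq_iff_eq_mul.1 (congrArg Subtype.val (hinj h1))).symm
    · rintro hc _ ⟨w, rfl⟩
      obtain ⟨hgw, he⟩ := hequiv g hg w
      have h1 : (⟨g * (w : G) * g⁻¹, hgw⟩ : W) = w :=
        Subtype.ext (mul_inv_eq_iff_eq_mul.2 (hc w w.2).symm)
      rw [h1] at he
      exact (mul_inv_eq_iff_eq_mul.1 he).symm

/-- The fixed points induce `SL(2, p)` on a fixed plane. -/
theorem exists_fixed_SL2 (h : FF.GenHyp p V H) (hL : FF.IsLine p V H L) (hA : Act q V H A) :
    ∃ W' : Subgroup G, W' ≤ V ⊓ Subgroup.centralizer (A : Set G) ∧ Nat.card W' = p ^ 2 ∧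
      H ⊓ Subgroup.centralizer (A : Set G) ≤ Subgroup.normalizer (W' : Set G) ∧
      ∃ ψ : ↥(H ⊓ Subgroup.centralizer (A : Set G)) →* SL(2, ZMod p), Function.Surjective ψ ∧
        ∀ g, ψ g = 1 ↔ (g : G) ∈ Subgroup.centralizer (W' : Set G) := by
  obtain ⟨W', h1, h2, h3, h4⟩ := exists_fixed_plane h hL hA
  obtain ⟨eSL⟩ := h.toHyp.block_equiv hL
  obtain ⟨hcomm, hdisj, hsup, -⟩ := h.eblock_factor hL
  set E := FF.eblock p H L
  set W := FF.bplane p V H L
  set N := (H ⊓ Subgroup.centralizer (W : Set G)).subgroupOf H with hN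
  have hHN : H ≤ Subgroup.normalizer ((H ⊓ Subgroup.centralizer (W : Set G) : Subgroup G) : Set G) :=
    Modules.normalizes_inf Subgroup.le_normalizer
      (Modules.normalizes_centralizer (h.le_normalizer_bplane hL))
  haveI : N.Normal := (Subgroup.normal_subgroupOf_iff_le_normalizer inf_le_left).2 hHN
  let ι : E →* H ⧸ N := (QuotientGroup.mk' N).comp (Subgroup.inclusion (FF.eblock_le_H hL))
  have hι : Function.Bijective ι := by
    refine ⟨?_, ?_⟩
    · rw [← MonoidHom.ker_eq_bot_iff, eq_bot_iff]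
      intro e he
      have : (e : G) ∈ E ⊓ (H ⊓ Subgroup.centralizer (W : Set G)) :=
        Subgroup.mem_inf.2 ⟨e.2, (QuotientGroup.eq_one_iff
          (Subgroup.inclusion (FF.eblock_le_H hL) e)).1 (MonoidHom.mem_ker.1 he)⟩
      rw [hdisj, Subgroup.mem_bot] at this
      exact Subgroup.mem_bot.2 (Subtype.ext this)
    · intro y
      obtain ⟨x, rfl⟩ := QuotientGroup.mk'_surjective N y
      obtain ⟨e, he, n, hn, hen⟩ := Coprime.exists_mul_of_mem_sup
        ((FF.eblock_le_H hL).trans hHN) (hsup.ge x.2)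
      refine ⟨⟨e, he⟩, QuotientGroup.eq.2 ?_⟩
      rw [hN, Subgroup.mem_subgroupOf]
      change e⁻¹ * (x : G) ∈ _
      rw [hen, inv_mul_cancel_left]
      exact hn
  let ψ : ↥(H ⊓ Subgroup.centralizer (A : Set G)) →* SL(2, ZMod p) :=
    eSL.toMonoidHom.comp ((MulEquiv.ofBijective ι hι).symm.toMonoidHom.comp
      ((QuotientGroup.mk' N).comp (Subgroup.inclusion inf_le_left)))
  refine ⟨W', h1, h2, h3, ψ, fun s => ?_, fun g => ?_⟩
  · obtain ⟨δ, hδ, hδe⟩ := exists_fixed h hL hA (eSL.symm s).2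
    refine ⟨⟨δ, hδ⟩, ?_⟩
    have : ι (eSL.symm s) = QuotientGroup.mk' N ⟨δ, hδ.1⟩ := QuotientGroup.eq.2 hδe
    change eSL ((MulEquiv.ofBijective ι hι).symm (QuotientGroup.mk' N ⟨δ, hδ.1⟩)) = s
    rw [← this, show ι (eSL.symm s) = MulEquiv.ofBijective ι hι (eSL.symm s) from rfl,
      MulEquiv.symm_apply_apply, MulEquiv.apply_symm_apply]
  · rw [h4 g g.2]
    change eSL ((MulEquiv.ofBijective ι hι).symm (QuotientGroup.mk' N ⟨g, g.2.1⟩)) = 1 ↔ _
    rw [MulEquiv.map_eq_one_iff, MulEquiv.map_eq_one_iff, QuotientGroup.mk'_apply,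
      QuotientGroup.eq_one_iff, hN, Subgroup.mem_subgroupOf]
    exact ⟨fun hg => hg.2, fun hg => Subgroup.mem_inf.2 ⟨g.2.1, hg⟩⟩

/-- A subgroup containing the fixed points and meeting every block in an element of order `p`
contains `H`. -/
theorem le_of_fixed (h : FF.GenHyp p V H) (hA : Act q V H A) {M : Subgroup G}
    (hM : H ⊓ Subgroup.centralizer (A : Set G) ≤ M)
    (hblk : ∀ L, FF.IsLine p V H L → ∃ L₀ : Subgroup G,
      L₀ ≤ M ⊓ FF.eblock p H L ∧ Nat.card L₀ = p) : H ≤ M := by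
  refine h.le_of_lines fun L hL => ?_
  obtain ⟨L₀, hL₀, hc₀⟩ := hblk L hL
  set E := FF.eblock p H L
  have hfac : (Nat.card E).factorization p = 1 := by
    rw [h.toHyp.card_eblock hL, mul_assoc]
    have hnd : ¬ p ∣ (p - 1) * (p + 1) := by
      intro hd
      rcases hp.out.dvd_mul.1 hd with h1 | h1
      · have := Nat.le_of_dvd (by have := hp.out.two_le; omega) h1
        have := hp.out.pos
        omega
      · exact hp.out.one_lt.ne' (Nat.dvd_one.1 ((Nat.dvd_add_right dvd_rfl).1 h1))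
    have hne : (p - 1) * (p + 1) ≠ 0 := fun h0 => hnd (h0 ▸ dvd_zero p)
    rw [Nat.factorization_mul hp.out.ne_zero hne, Finsupp.add_apply, hp.out.factorization_self,
      Nat.factorization_eq_zero_of_not_dvd hnd]
  have hcE : ∀ U : Subgroup G, U ≤ E → Nat.card U = p →
      Nat.card (U.subgroupOf E) = p ^ (Nat.card E).factorization p := fun U hU hc => by
    rw [Nat.card_congr (Subgroup.subgroupOfEquivOfLe hU).toEquiv, hfac, pow_one, hc]
  obtain ⟨g, hg⟩ := MulAction.exists_smul_eq E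
    (Sylow.ofCard _ (hcE L₀ (hL₀.trans inf_le_right) hc₀))
    (Sylow.ofCard _ (hcE L le_sup_right hL.card))
  obtain ⟨δ, hδ, hδn⟩ := exists_fixed h hL hA g.2
  intro l hl
  have hlE : l ∈ E := Subgroup.mem_sup_right hl
  have hl' : (⟨l, hlE⟩ : E) ∈
      ((Sylow.ofCard _ (hcE L le_sup_right hL.card) : Sylow p E) : Subgroup E) := hl
  rw [← hg, Sylow.coe_subgroup_smul] at hl'
  obtain ⟨l₀, hl₀, he⟩ := hl'
  have he' : (g : G) * l₀ * (g : G)⁻¹ = l := congrArg Subtype.val he
  have hl₀' : (l₀ : G) ∈ L₀ := hl₀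
  have hcomm : (l₀ : G) * ((g : G)⁻¹ * δ) = ((g : G)⁻¹ * δ) * l₀ :=
    commutatorElement_eq_one_iff_mul_comm.1 (Subgroup.mem_bot.1 ((h.eblock_factor hL).1 ▸
      Subgroup.commutator_mem_commutator (hL₀ hl₀').2 hδn))
  have : δ * l₀ * δ⁻¹ = l := by
    calc δ * (l₀ : G) * δ⁻¹ = g * (((g : G)⁻¹ * δ) * l₀) * δ⁻¹ := by group
      _ = g * ((l₀ : G) * ((g : G)⁻¹ * δ)) * δ⁻¹ := by rw [hcomm]
      _ = g * l₀ * (g : G)⁻¹ := by group
      _ = l := he'
  rw [← this]
  exact mul_mem (mul_mem (hM hδ) (hL₀ hl₀').1) (inv_mem (hM hδ))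

end Cfsg.Agent.Stability.FixedBlocks
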