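import Mathlib.GroupTheory.SemidirectProduct
import Cfsg.Agent.FF.Realize
import Cfsg.Agent.PSolv.OmegaCenter
import Cfsg.Agent.Stability.FixedBlocks

/-!
Failure of factorization of `K` in the presence of a coprime group of operators `X`.
-/

set_option autoImplicit false

open Cfsg
open scoped MatrixGroups

namespace Cfsg.Agent.Stability.CoprimeFF

variable {G : Type*} [Group G]

/-- `V` extended by all its automorphisms. -/
abbrev Semi (V : Subgroup G) := SemidirectProduct V (MulAut V) (MonoidHom.id (MulAut V))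

/-- The normalizer of `V` mapped to the automorphisms. -/
noncomputable def fhom (V : Subgroup G) : Subgroup.normalizer (V : Set G) →* Semi V :=
  (SemidirectProduct.inr).comp V.normalizerMonoidHom

/-- The copy of `V`. -/
noncomputable abbrev vimg (V : Subgroup G) : Subgroup (Semi V) :=
  (SemidirectProduct.inl : V →* Semi V).range

/-- The image of a subgroup. -/
noncomputable abbrev img (V Y : Subgroup G) : Subgroup (Semi V) :=
  (Y.subgroupOf (Subgroup.normalizer (V : Set G))).map (fhom V)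

variable {V Y : Subgroup G}

theorem fhom_conj (g : Subgroup.normalizer (V : Set G)) (v : V) :
    fhom V g * SemidirectProduct.inl v * (fhom V g)⁻¹ =
      SemidirectProduct.inl (V.normalizerMonoidHom g v) := by
  rw [fhom, MonoidHom.comp_apply, ← map_inv SemidirectProduct.inr]
  exact (SemidirectProduct.inl_aut (φ := MonoidHom.id (MulAut V)) (V.normalizerMonoidHom g) v).symm

theorem coe_norm_apply (g : Subgroup.normalizer (V : Set G)) (v : V) :
    ((V.normalizerMonoidHom g v : V) : G) = g * v * (g : G)⁻¹ := rfl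

theorem commute_iff (g : Subgroup.normalizer (V : Set G)) (v : V) :
    fhom V g * SemidirectProduct.inl v = SemidirectProduct.inl v * fhom V g ↔
      (g : G) * v = v * g := by
  rw [← mul_inv_eq_iff_eq_mul, fhom_conj, SemidirectProduct.inl_injective.eq_iff, ← Subtype.coe_inj,
    coe_norm_apply]
  exact mul_inv_eq_iff_eq_mul

theorem fhom_eq_one_iff (g : Subgroup.normalizer (V : Set G)) :
    fhom V g = 1 ↔ (g : G) ∈ Subgroup.centralizer (V : Set G) := by
  constructor
  · intro h
    refine Subgroup.mem_centralizer_iff.2 fun v hv => ((commute_iff g ⟨v, hv⟩).1 ?_).symm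
    rw [h, one_mul, mul_one]
  · intro h
    have h1 : V.normalizerMonoidHom g = 1 := MulEquiv.ext fun v => Subtype.ext (by
      rw [coe_norm_apply, MulAut.one_apply, ← Subgroup.mem_centralizer_iff.1 h v v.2,
        mul_inv_cancel_right])
    rw [fhom, MonoidHom.comp_apply, h1, map_one]

theorem mem_img {z : Semi V} :
    z ∈ img V Y ↔ ∃ g : Subgroup.normalizer (V : Set G), (g : G) ∈ Y ∧ fhom V g = z :=
  Subgroup.mem_map

theorem fhom_mem_img (g : Subgroup.normalizer (V : Set G)) (hg : (g : G) ∈ Y) :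
    fhom V g ∈ img V Y := mem_img.2 ⟨g, hg, rfl⟩

theorem img_mono {Y Y' : Subgroup G} (h : Y ≤ Y') : img V Y ≤ img V Y' :=
  Subgroup.map_mono (Subgroup.comap_mono h)

/-- The restriction to a subgroup of the normalizer. -/
noncomputable def rhom (V Y : Subgroup G) (hY : Y ≤ Subgroup.normalizer (V : Set G)) :
    Y →* img V Y :=
  ((fhom V).comp (Subgroup.inclusion hY)).codRestrict _ fun y => fhom_mem_img _ y.2

theorem rhom_surjective (hY : Y ≤ Subgroup.normalizer (V : Set G)) :
    Function.Surjective (rhom V Y hY) := by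
  rintro ⟨z, hz⟩
  obtain ⟨g, hg, rfl⟩ := mem_img.1 hz
  exact ⟨⟨g, hg⟩, rfl⟩

theorem rhom_ker (hY : Y ≤ Subgroup.normalizer (V : Set G)) :
    (rhom V Y hY).ker = (Subgroup.centralizer (V : Set G)).subgroupOf Y := by
  ext y
  rw [MonoidHom.mem_ker, ← Subtype.coe_inj, Subgroup.mem_subgroupOf]
  exact fhom_eq_one_iff (Subgroup.inclusion hY y)

theorem card_img_mul [Finite G] (hY : Y ≤ Subgroup.normalizer (V : Set G)) :
    Nat.card (img V Y) * Nat.card ↥(Y ⊓ Subgroup.centralizer (V : Set G)) = Nat.card Y := by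
  rw [mul_comm, ← Subgroup.card_mul_index (rhom V Y hY).ker, Subgroup.index_ker,
    MonoidHom.range_eq_top.2 (rhom_surjective hY), Subgroup.card_top, rhom_ker hY]
  congr 1
  rw [← Subgroup.card_map_of_injective (f := Y.subtype) Y.subtype_injective,
    Subgroup.subgroupOf_map_subtype, inf_comm]

theorem card_fixed [Finite G] (hY : Y ≤ Subgroup.normalizer (V : Set G)) :
    Nat.card ↥(vimg V ⊓ Subgroup.centralizer (img V Y : Set (Semi V))) =
      Nat.card ↥(V ⊓ Subgroup.centralizer (Y : Set G)) := by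
  have e : vimg V ⊓ Subgroup.centralizer (img V Y : Set (Semi V)) =
      ((Subgroup.centralizer (Y : Set G)).subgroupOf V).map SemidirectProduct.inl := by
    ext z
    constructor
    · intro hz
      obtain ⟨⟨v, rfl⟩, hz2⟩ := Subgroup.mem_inf.1 hz
      refine ⟨v, Subgroup.mem_centralizer_iff.2 fun y hy => ?_, rfl⟩
      exact (commute_iff ⟨y, hY hy⟩ v).1
        (Subgroup.mem_centralizer_iff.1 hz2 _ (fhom_mem_img ⟨y, hY hy⟩ hy))
    · rintro ⟨v, hv, rfl⟩
      refine Subgroup.mem_inf.2 ⟨⟨v, rfl⟩, Subgroup.mem_centralizer_iff.2 fun z hz => ?_⟩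
      obtain ⟨g, hg, rfl⟩ := mem_img.1 hz
      exact (commute_iff g v).2 (Subgroup.mem_centralizer_iff.1 hv g hg)
  rw [e, Subgroup.card_map_of_injective SemidirectProduct.inl_injective,
    ← Subgroup.card_map_of_injective (f := V.subtype) V.subtype_injective,
    Subgroup.subgroupOf_map_subtype, inf_comm]

variable [Finite G] {p q : ℕ} [hp : Fact p.Prime] [hq : Fact q.Prime]

instance : Finite (Semi V) := Finite.of_equiv _ SemidirectProduct.equivProd.symm

theorem img_le_normalizer {Z : Subgroup G} (h : Y ≤ Subgroup.normalizer (Z : Set G)) :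
    img V Y ≤ Subgroup.normalizer (img V Z : Set (Semi V)) := by
  refine Subgroup.le_normalizer_iff.2 fun z hz w hw => ?_
  obtain ⟨g, hg, rfl⟩ := mem_img.1 hz
  obtain ⟨k, hk, rfl⟩ := mem_img.1 hw
  rw [← map_inv, ← map_mul, ← map_mul]
  exact fhom_mem_img _ ((Subgroup.mem_normalizer_iff.1 (h hg) _).1 hk)

/-- The configuration in `V ⋊ Aut V`. -/
theorem genHyp_act (K X V : Subgroup G) (hVK : V ≤ K) (hVe : IsElementaryAbelian p V)
    (hKV : K ≤ Subgroup.normalizer (V : Set G)) (hXV : X ≤ Subgroup.normalizer (V : Set G))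
    (hXK : X ≤ Subgroup.normalizer (K : Set G)) (hsep : IsPSolvable p ↥K)
    (hOp : pCore p (img V K) = ⊥) (hX : IsPGroup q X) (hqK : ¬ q ∣ Nat.card K) :
    FF.GenHyp p (vimg V) (img V (thompsonSubgroupOf p K)) ∧
      FixedBlocks.Act q (vimg V) (img V (thompsonSubgroupOf p K)) (img V X) := by
  set J := thompsonSubgroupOf p K with hJ
  set H := img V J with hH
  have hJK : J ≤ K := Modules.thompsonSubgroupOf_le p K
  have hJV := hJK.trans hKV
  have hKJ : K ≤ Subgroup.normalizer (J : Set G) :=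
    Subgroup.le_normalizer.trans (Modules.normalizer_le_normalizer_thompsonSubgroupOf p K)
  have hnorm : ∀ Y : Subgroup G, img V Y ≤ Subgroup.normalizer (vimg V : Set (Semi V)) := by
    intro Y
    refine Subgroup.le_normalizer_iff.2 fun z hz w hw => ?_
    obtain ⟨g, -, rfl⟩ := mem_img.1 hz
    obtain ⟨v, rfl⟩ := hw
    exact ⟨_, (fhom_conj g v).symm⟩
  have hV'e : IsElementaryAbelian p (vimg V) := by
    refine ⟨Modules.comm_iff.2 ?_, ?_⟩
    · rintro _ ⟨a, rfl⟩ _ ⟨b, rfl⟩
      rw [← map_mul, ← map_mul, show a * b = b * a from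
        Subtype.ext (Modules.elemAb_comm hVe a.2 b.2)]
    · rintro _ ⟨a, rfl⟩
      rw [← map_pow, show a ^ p = 1 from Subtype.ext (by simpa using hVe.2 a a.2), map_one]
  have hfaith : H ⊓ Subgroup.centralizer (vimg V : Set (Semi V)) = ⊥ := by
    rw [eq_bot_iff]
    intro z hz
    obtain ⟨hz1, hz2⟩ := Subgroup.mem_inf.1 hz
    obtain ⟨g, -, rfl⟩ := mem_img.1 hz1
    rw [Subgroup.mem_bot, fhom_eq_one_iff, Subgroup.mem_centralizer_iff]
    exact fun v hv =>
      ((commute_iff g ⟨v, hv⟩).1 (Subgroup.mem_centralizer_iff.1 hz2 _ ⟨⟨v, hv⟩, rfl⟩).symm).symm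
  have hHK : H ≤ img V K := img_mono hJK
  have hself : Subgroup.centralizer (pPrimeCore p ↥H : Set ↥H) ≤ pPrimeCore p ↥H := by
    haveI : (H.subgroupOf (img V K)).Normal :=
      (Subgroup.normal_subgroupOf_iff_le_normalizer hHK).2 (img_le_normalizer hKJ)
    have hKsep : IsPSolvable p (img V K) :=
      PSolv.isPSolvable_of_surjective (rhom V K hKV) (rhom_surjective hKV) hsep
    let e := Subgroup.subgroupOfEquivOfLe hHK
    refine PSolv.centralizer_pPrimeCore_le (PSolv.isPSolvable_of_equiv e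
      (PSolv.isPSolvable_subgroup hKsep _)) ?_
    have h1 : (pCore p (H.subgroupOf (img V K))).map (H.subgroupOf (img V K)).subtype ≤ ⊥ :=
      hOp ▸ PSolv.map_pCore_subtype_le
    rw [le_bot_iff, Subgroup.map_eq_bot_iff_of_injective _ (Subgroup.subtype_injective _)] at h1
    rw [← PSolv.map_pCore_equiv e, h1, Subgroup.map_bot]
  have hoff : ∀ A ∈ Modules.maxElemAbIn p K, IsBestOffenderOn p (vimg V) (img V A) := by
    intro A hA
    have hbest := Modules.maxElemAbIn_bestOffender hA hVe hVK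
    have hAV : A ≤ Subgroup.normalizer (V : Set G) := hA.1.trans hKV
    have hAe : IsElementaryAbelian p (img V A) :=
      Modules.elemAb_map _ (Modules.elemAb_subgroupOf hA.2.1)
    refine ⟨fun B' hB' => ?_, ?_, fun a ha => ?_⟩
    · set B := A ⊓ ((B'.comap (fhom V)).map (Subgroup.normalizer (V : Set G)).subtype) with hB
      have hBV : B ≤ Subgroup.normalizer (V : Set G) := inf_le_left.trans hAV
      have hBmap : img V B = B' := by
        refine le_antisymm (fun z hz => ?_) fun z hz => ?_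
        · obtain ⟨g, hg, rfl⟩ := mem_img.1 hz
          obtain ⟨k, hk, hkg⟩ := (Subgroup.mem_inf.1 hg).2
          rw [show g = k from Subtype.ext hkg.symm]
          exact hk
        · obtain ⟨g, hg, rfl⟩ := mem_img.1 (hB' hz)
          exact fhom_mem_img g (Subgroup.mem_inf.2 ⟨hg, ⟨g, hz, rfl⟩⟩)
      have hint : B ⊓ Subgroup.centralizer (V : Set G) = A ⊓ Subgroup.centralizer (V : Set G) := by
        refine le_antisymm (inf_le_inf_right _ inf_le_left) fun x hx => ?_
        obtain ⟨hxA, hxC⟩ := Subgroup.mem_inf.1 hx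
        refine Subgroup.mem_inf.2 ⟨Subgroup.mem_inf.2 ⟨hxA, ⟨⟨x, hAV hxA⟩, ?_, rfl⟩⟩, hxC⟩
        change fhom V ⟨x, hAV hxA⟩ ∈ B'
        rw [(fhom_eq_one_iff _).2 hxC]
        exact one_mem _
      have h1 := hbest.1 B inf_le_left
      rw [← card_img_mul hBV, ← card_img_mul hAV, hint, ← card_fixed hBV, ← card_fixed hAV,
        hBmap] at h1
      refine Nat.le_of_mul_le_mul_left ?_
        (Nat.card_pos (α := ↥(A ⊓ Subgroup.centralizer (V : Set G))))
      calc _ = _ := by ring
        _ ≤ _ := h1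
        _ = _ := by ring
    · rw [Subgroup.commutator_eq_bot_iff_le_centralizer.2 (Modules.elemAb_le_centralizer hAe)]
      exact bot_le
    · rw [hAe.2 a ha]; exact one_mem _
  have hgen : H = ⨆ A : {A : Subgroup (Semi V) // A ≤ H ∧ IsBestOffenderOn p (vimg V) A},
      (A : Subgroup (Semi V)) := by
    set R := ⨆ A : {A : Subgroup (Semi V) // A ≤ H ∧ IsBestOffenderOn p (vimg V) A},
      (A : Subgroup (Semi V)) with hR
    refine le_antisymm ?_ (iSup_le fun A => A.2.1)
    have hle : J ≤ (R.comap (fhom V)).map (Subgroup.normalizer (V : Set G)).subtype := by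
      rw [hJ, Modules.thompsonSubgroupOf_eq_sSup]
      refine sSup_le fun A hA x hx => ⟨⟨x, hKV (hA.1 hx)⟩, ?_, rfl⟩
      exact le_iSup_of_le (f := fun A : {A : Subgroup (Semi V) //
          A ≤ H ∧ IsBestOffenderOn p (vimg V) A} => (A : Subgroup (Semi V)))
        ⟨img V A, img_mono (Modules.le_thompsonSubgroupOf hA), hoff A hA⟩ le_rfl
        (fhom_mem_img _ hx)
    intro z hz
    obtain ⟨g, hg, rfl⟩ := mem_img.1 hz
    obtain ⟨k, hk, hkg⟩ := hle hg
    rw [show g = k from Subtype.ext hkg.symm]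
    exact hk
  refine ⟨⟨⟨hV'e, hnorm J, hfaith, hself⟩, hgen⟩,
    hnorm X, img_le_normalizer (hXK.trans (Modules.normalizer_le_normalizer_thompsonSubgroupOf p K)),
    hX.of_surjective (rhom V X hXV) (rhom_surjective hXV), fun hd => hqK (hd.trans ?_)⟩
  exact (Dvd.intro _ (card_img_mul hJV)).trans (Subgroup.card_dvd_of_le hJK)

/-- `⟨Ω₁Z(S)⟩` over the Sylow subgroups of `K`, as a subgroup of `G`. -/
def omegaV (p : ℕ) {G : Type*} [Group G] (K : Subgroup G) : Subgroup G :=
  ⨆ S : Sylow p K, omegaOne p ((S : Subgroup K).map K.subtype ⊓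
    Subgroup.centralizer (((S : Subgroup K).map K.subtype : Subgroup G) : Set G))

omit [Finite G] hp in
theorem omegaV_eq (K : Subgroup G) :
    omegaV p K = (⨆ S : Sylow p K, omegaOne p ((S : Subgroup K) ⊓
      Subgroup.centralizer ((S : Subgroup K) : Set K))).map K.subtype := by
  rw [omegaV, Subgroup.map_iSup]
  refine iSup_congr fun S => ?_
  rw [Modules.map_omegaOne K.subtype_injective, Modules.map_inf_centralizer K.subtype_injective]

theorem map_conj_omegaV_le (K : Subgroup G) {g : G} (hg : g ∈ Subgroup.normalizer (K : Set G)) :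
    (omegaV p K).map (MulAut.conj g).toMonoidHom ≤ omegaV p K := by
  rw [omegaV, Subgroup.map_iSup]
  refine iSup_le fun S => ?_
  rw [PSolv.map_conj_omegaCenter]
  set T := ((S : Subgroup K).map K.subtype).map (MulAut.conj g).toMonoidHom with hT
  have hTK : T ≤ K := by
    rw [hT]
    conv_rhs => rw [← FF.map_conj_eq hg]
    exact Subgroup.map_mono (Subgroup.map_subtype_le _)
  have hcard : Nat.card (T.subgroupOf K) = p ^ (Nat.card K).factorization p := by
    rw [Nat.card_congr (Subgroup.subgroupOfEquivOfLe hTK).toEquiv, hT,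
      Subgroup.card_map_of_injective (MulEquiv.injective _),
      Subgroup.card_map_of_injective K.subtype_injective]
    exact Sylow.card_eq_multiplicity S
  refine le_iSup_of_le (Sylow.ofCard _ hcard) ?_
  exact le_of_eq (by rw [show ((Sylow.ofCard _ hcard : Sylow p K) : Subgroup K) = T.subgroupOf K
    from rfl, Subgroup.map_subgroupOf_eq_of_le hTK])

theorem le_normalizer_omegaV (K : Subgroup G) :
    Subgroup.normalizer (K : Set G) ≤ Subgroup.normalizer (omegaV p K : Set G) :=
  Subgroup.le_normalizer_iff.2 fun _ hg v hv => map_conj_omegaV_le K hg ⟨v, hv, rfl⟩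

omit [Finite G] hp in
theorem omegaV_le (K : Subgroup G) : omegaV p K ≤ K := by
  rw [omegaV_eq]
  exact Subgroup.map_subtype_le _

theorem le_normalizer_omegaV' (K : Subgroup G) :
    K ≤ Subgroup.normalizer (omegaV p K : Set G) :=
  Subgroup.le_normalizer.trans (le_normalizer_omegaV K)

omit [Finite G] hp in
theorem centralizer_subgroupOf_map (K : Subgroup G) (W : Subgroup K) :
    (Subgroup.centralizer ((W.map K.subtype : Subgroup G) : Set G)).subgroupOf K =
      Subgroup.centralizer (W : Set K) := by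
  ext x
  rw [Subgroup.mem_subgroupOf, Subgroup.mem_centralizer_iff, Subgroup.mem_centralizer_iff]
  constructor
  · intro h w hw
    exact Subtype.ext (h w ⟨w, hw, rfl⟩)
  · rintro h _ ⟨w, hw, rfl⟩
    exact congrArg Subtype.val (h w hw)

/-- The data of the configuration. -/
theorem omegaV_data (K : Subgroup G) (hsep : IsPSolvable p ↥K) (hO : pPrimeCore p ↥K = ⊥) :
    IsElementaryAbelian p (omegaV p K) ∧ pCore p (img (omegaV p K) K) = ⊥ ∧
    (IsThompsonFactorizable p ↥K ↔
      thompsonSubgroupOf p K ≤ Subgroup.centralizer (omegaV p K : Set G)) := by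
  set W := ⨆ S : Sylow p K, omegaOne p ((S : Subgroup K) ⊓
    Subgroup.centralizer ((S : Subgroup K) : Set K)) with hW
  have hV : omegaV p K = W.map K.subtype := omegaV_eq K
  haveI : W.Normal := PSolv.iSup_omegaCenter_normal
  refine ⟨hV ▸ Modules.elemAb_map _
    (PSolv.iSup_omegaCenter_elemAb (PSolv.centralizer_pCore_le hsep hO)), ?_, ?_⟩
  · set r := rhom (omegaV p K) K (le_normalizer_omegaV' K)
    have hker : r.ker = Subgroup.centralizer (W : Set K) := by
      rw [rhom_ker, hV, centralizer_subgroupOf_map]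
    set P := (pCore p (img (omegaV p K) K)).comap r with hP
    haveI : P.Normal := (Cfsg.pCore_normal p _).comap r
    obtain ⟨k, hk⟩ := IsPGroup.iff_card.1 (PSolv.isPGroup_pCore p (img (omegaV p K) K))
    have hle := PSolv.le_centralizer_of_relIndex_pow W P PSolv.iSup_omegaCenter_gen
      (hker ▸ Subgroup.ker_le_comap r _) (k := k) ?_
    · rw [eq_bot_iff]
      intro z hz
      obtain ⟨x, rfl⟩ := rhom_surjective (le_normalizer_omegaV' K) z
      exact Subgroup.mem_bot.2 (MonoidHom.mem_ker.1 (hker ▸ hle hz : x ∈ r.ker))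
    · rw [← hker, Subgroup.relIndex_ker, hP,
        Subgroup.map_comap_eq_self_of_surjective (rhom_surjective _)]
      exact hk
  · rw [PSolv.thompsonFactorizable_iff hO]
    have hJ : thompsonSubgroupOf p K = (thompsonSubgroup p K).map K.subtype := rfl
    rw [hJ, Subgroup.map_le_iff_le_comap, hV]
    exact iff_of_eq (congrArg _ (centralizer_subgroupOf_map K W).symm)

/-- Fixed points of the operators in the image of `J(K)` lift to fixed points. -/
theorem exists_lift (K X : Subgroup G) (hXK : X ≤ Subgroup.normalizer (K : Set G))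
    (hXV : X ≤ Subgroup.normalizer (V : Set G)) (hKV : K ≤ Subgroup.normalizer (V : Set G))
    (hcop : (Nat.card X).Coprime (Nat.card K)) (hXs : Group.IsSolvable X)
    {δ : Semi V} (hδ : δ ∈ img V (thompsonSubgroupOf p K) ⊓
      Subgroup.centralizer (img V X : Set (Semi V))) :
    ∃ c : Subgroup.normalizer (V : Set G),
      (c : G) ∈ K ⊓ Subgroup.centralizer (X : Set G) ∧ fhom V c = δ := by
  obtain ⟨hδJ, hδX⟩ := Subgroup.mem_inf.1 hδ
  obtain ⟨j, hj, rfl⟩ := mem_img.1 hδJ
  have hjK : (j : G) ∈ K := Modules.thompsonSubgroupOf_le p K hj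
  set N := K ⊓ Subgroup.centralizer (V : Set G) with hN
  have hXN : X ≤ Subgroup.normalizer (N : Set G) :=
    Modules.normalizes_inf hXK (Modules.normalizes_centralizer hXV)
  obtain ⟨c, hc, hcN⟩ := Coprime.exists_fixed_mem_coset (K := K) hXN
    (hcop.coprime_dvd_right (Subgroup.card_dvd_of_le inf_le_left)) (Or.inl hXs) inf_le_left hjK
    (fun a ha => by
      refine Subgroup.mem_inf.2 ⟨?_, ?_⟩
      · rw [show (j : G)⁻¹ * a * j * a⁻¹ = (j : G)⁻¹ * (a * j * a⁻¹) by group]
        exact mul_mem (inv_mem hjK) ((Subgroup.mem_normalizer_iff.1 (hXK ha) _).1 hjK)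
      · have h1 : fhom V (j⁻¹ * ⟨a, hXV ha⟩ * j * ⟨a, hXV ha⟩⁻¹) = 1 := by
          rw [map_mul, map_mul, map_mul, map_inv, map_inv, mul_assoc (fhom V j)⁻¹,
            Subgroup.mem_centralizer_iff.1 hδX _ (fhom_mem_img ⟨a, hXV ha⟩ ha)]
          group
        exact (fhom_eq_one_iff _).1 h1)
  refine ⟨⟨c, hKV hc.1⟩, hc, ?_⟩
  have h1 : fhom V (j⁻¹ * ⟨c, hKV hc.1⟩) = 1 :=
    (fhom_eq_one_iff _).2 (Subgroup.mem_inf.1 hcN).2
  rw [map_mul, map_inv, inv_mul_eq_one] at h1
  exact h1.symm

variable (K X : Subgroup G)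

theorem isSolvable_of_elemAb (hX : IsElementaryAbelian q X) : Group.IsSolvable X :=
  isSolvable_of_comm fun a b => Subtype.ext (Modules.elemAb_comm hX a.2 b.2)

theorem coprime_card (hX : IsElementaryAbelian q X) (hqK : ¬ q ∣ Nat.card K) :
    (Nat.card X).Coprime (Nat.card K) := by
  obtain ⟨n, hn⟩ := IsPGroup.iff_card.1 (Modules.elemAb_isPGroup hX)
  rw [hn]
  exact (hq.out.coprime_iff_not_dvd.2 hqK).pow_left n

omit hp in
/-- `S ∩ J` is a Sylow subgroup of `J`, also after mapping. -/
theorem not_dvd_relIndex_img [Fact p.Prime] (hKV : K ≤ Subgroup.normalizer (V : Set G))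
    (S : Sylow p K) :
    ¬ p ∣ (img V ((S : Subgroup K).map K.subtype)).relIndex (img V (thompsonSubgroupOf p K)) := by
  set J := thompsonSubgroupOf p K with hJ
  set Sg := (S : Subgroup K).map K.subtype with hSg
  have hJV : J ≤ Subgroup.normalizer (V : Set G) :=
    (Modules.thompsonSubgroupOf_le p K).trans hKV
  intro hd
  haveI : (thompsonSubgroup p K).Normal := by
    have := Modules.thompsonSubgroup_characteristic p K
    infer_instance
  refine Sylow.not_dvd_index S (hd.trans (dvd_trans ?_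
    (PSolv.relIndex_dvd_index_of_normal_right (S : Subgroup K) (thompsonSubgroup p K))))
  have h1 : (Sg.subgroupOf J).map (rhom V J hJV) ≤ (img V Sg).subgroupOf (img V J) := by
    rintro _ ⟨x, hx, rfl⟩
    exact fhom_mem_img (Subgroup.inclusion hJV x) hx
  refine (Subgroup.index_dvd_of_le h1).trans ?_
  refine (Subgroup.index_map_dvd _ (rhom_surjective hJV)).trans (dvd_of_eq ?_)
  change Sg.relIndex J = _
  exact Subgroup.relIndex_map_map_of_injective _ _ K.subtype_injective

/-- **Generation by the fixed points of the operators.** -/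
theorem thompson_le (hXK : X ≤ Subgroup.normalizer (K : Set G)) (hX : IsElementaryAbelian q X)
    (hqK : ¬ q ∣ Nat.card K) (hsep : IsPSolvable p ↥K) (hO : pPrimeCore p ↥K = ⊥) (S : Sylow p K)
    {M : Subgroup G} (hMS : (S : Subgroup K).map K.subtype ≤ M)
    (hMC : K ⊓ Subgroup.centralizer (omegaV p K : Set G) ≤ M)
    (hMX : K ⊓ Subgroup.centralizer (X : Set G) ≤ M) : thompsonSubgroupOf p K ≤ M := by
  set V := omegaV p K with hV
  obtain ⟨hVe, hOp, -⟩ := omegaV_data K hsep hO
  have hKV : K ≤ Subgroup.normalizer (V : Set G) := le_normalizer_omegaV' K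
  have hXV : X ≤ Subgroup.normalizer (V : Set G) := hXK.trans (le_normalizer_omegaV K)
  obtain ⟨h, hA⟩ := genHyp_act K X V (omegaV_le K) hVe hKV hXV hXK hsep hOp
    (Modules.elemAb_isPGroup hX) hqK
  set J := thompsonSubgroupOf p K with hJ
  set T := img V ((S : Subgroup K).map K.subtype) with hT
  have hmain : img V J ≤ img V (M ⊓ K) := by
    refine FixedBlocks.le_of_fixed h hA (fun δ hδ => ?_) fun L hL => ?_
    · obtain ⟨c, hc, rfl⟩ := exists_lift K X hXK hXV hKV (coprime_card K X hX hqK)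
        (isSolvable_of_elemAb X hX) hδ
      exact fhom_mem_img c (Subgroup.mem_inf.2 ⟨hMX hc, hc.1⟩)
    · set E := FF.eblock p (img V J) L
      have hEJ : E ≤ img V J := FF.eblock_le_H hL
      haveI : (E.subgroupOf (img V J)).Normal :=
        (Subgroup.normal_subgroupOf_iff_le_normalizer hEJ).2 (h.le_normalizer_eblock hL)
      have hnd : ¬ p ∣ T.relIndex E := by
        intro hd
        refine not_dvd_relIndex_img K hKV S (hd.trans ?_)
        have := PSolv.relIndex_dvd_index_of_normal_right (T.subgroupOf (img V J))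
          (E.subgroupOf (img V J))
        rwa [Subgroup.relIndex_subgroupOf hEJ] at this
      have hdvd : p ∣ Nat.card ↥(T ⊓ E) := by
        have h1 := FF.card_eq_card_mul_relIndex (inf_le_right : T ⊓ E ≤ E)
        rw [Subgroup.inf_relIndex_right] at h1
        have h2 : p ∣ Nat.card E :=
          h.toHyp.card_eblock hL ▸ Dvd.dvd.mul_right (Dvd.dvd.mul_right dvd_rfl _) _
        rw [h1] at h2
        exact (hp.out.dvd_mul.1 h2).resolve_right hnd
      obtain ⟨x, hx⟩ := exists_prime_orderOf_dvd_card' p hdvd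
      refine ⟨Subgroup.zpowers (x : Semi V), Subgroup.zpowers_le.2
        ⟨img_mono (le_inf hMS (Subgroup.map_subtype_le _)) x.2.1, x.2.2⟩, ?_⟩
      rw [Nat.card_zpowers, Subgroup.orderOf_coe, hx]
  intro g hg
  have hgK : g ∈ K := Modules.thompsonSubgroupOf_le p K hg
  obtain ⟨m, hm, he⟩ := mem_img.1 (hmain (fhom_mem_img ⟨g, hKV hgK⟩ hg))
  have h1 : fhom V (m⁻¹ * ⟨g, hKV hgK⟩) = 1 := by rw [map_mul, map_inv, he, inv_mul_cancel]
  rw [fhom_eq_one_iff] at h1
  have h2 : (m : G)⁻¹ * g ∈ M :=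
    hMC (Subgroup.mem_inf.2 ⟨mul_mem (inv_mem hm.2) hgK, h1⟩)
  simpa using mul_mem hm.1 h2

/-- The statement in `K`. -/
theorem generation (hXK : X ≤ Subgroup.normalizer (K : Set G)) (hX : IsElementaryAbelian q X)
    (hqK : ¬ q ∣ Nat.card K) (hsep : IsPSolvable p ↥K) (hO : pPrimeCore p ↥K = ⊥) (S : Sylow p K) :
    Subgroup.normalizer (thompsonSubgroupOf p (S : Subgroup K) : Set K) ⊔
      Subgroup.centralizer (omegaOne p ((S : Subgroup K) ⊓
        Subgroup.centralizer ((S : Subgroup K) : Set K)) : Set K) ⊔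
      (Subgroup.centralizer (X : Set G)).subgroupOf K = ⊤ := by
  set M : Subgroup K := Subgroup.normalizer (thompsonSubgroupOf p (S : Subgroup K) : Set K) ⊔
      Subgroup.centralizer (omegaOne p ((S : Subgroup K) ⊓
        Subgroup.centralizer ((S : Subgroup K) : Set K)) : Set K) ⊔
      (Subgroup.centralizer (X : Set G)).subgroupOf K with hM
  have hN : Subgroup.normalizer (thompsonSubgroupOf p (S : Subgroup K) : Set K) ≤ M :=
    le_sup_left.trans le_sup_left
  have hSM : (S : Subgroup K) ≤ M := (Subgroup.le_normalizer.trans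
    (Modules.normalizer_le_normalizer_thompsonSubgroupOf p _)).trans hN
  have hJ := thompson_le K X hXK hX hqK hsep hO S (M := M.map K.subtype) (Subgroup.map_mono hSM)
    (fun x hx => by
      obtain ⟨hxK, hxV⟩ := Subgroup.mem_inf.1 hx
      refine ⟨⟨x, hxK⟩, le_sup_left (b := (Subgroup.centralizer (X : Set G)).subgroupOf K)
        (le_sup_right (a := Subgroup.normalizer (thompsonSubgroupOf p (S : Subgroup K) : Set K))
          ?_), rfl⟩
      have h1 : (⟨x, hxK⟩ : K) ∈
          (Subgroup.centralizer (omegaV p K : Set G)).subgroupOf K := hxV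
      rw [omegaV_eq, centralizer_subgroupOf_map] at h1
      exact Subgroup.centralizer_le (le_iSup (fun T : Sylow p K => omegaOne p ((T : Subgroup K) ⊓
        Subgroup.centralizer ((T : Subgroup K) : Set K))) S) h1)
    (fun x hx => by
      obtain ⟨hxK, hxX⟩ := Subgroup.mem_inf.1 hx
      exact ⟨⟨x, hxK⟩, le_sup_right
        (a := Subgroup.normalizer (thompsonSubgroupOf p (S : Subgroup K) : Set K) ⊔
          Subgroup.centralizer (omegaOne p ((S : Subgroup K) ⊓
            Subgroup.centralizer ((S : Subgroup K) : Set K)) : Set K)) hxX, rfl⟩)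
  have hJM : thompsonSubgroup p K ≤ M := (Subgroup.map_le_map_iff_of_injective
    K.subtype_injective).1 hJ
  -- Frattini
  set J := thompsonSubgroup p K with hJd
  haveI : J.Normal := by
    have := Modules.thompsonSubgroup_characteristic p K
    infer_instance
  have hJS : thompsonSubgroupOf p (S : Subgroup K) ≤ (S : Subgroup K) ⊓ J :=
    le_inf (Modules.thompsonSubgroupOf_le _ _) (PSolv.thompsonSubgroupOf_sylow_le S)
  have hJeq := Modules.thompsonSubgroupOf_eq_of_le (inf_le_left : (S : Subgroup K) ⊓ J ≤ _) hJS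
  have hp' : IsPGroup p (((S : Subgroup K) ⊓ J).subgroupOf J) :=
    (S.isPGroup'.to_inf_left).comap_subtype
  have hnd : ¬ p ∣ (((S : Subgroup K) ⊓ J).subgroupOf J).index := by
    change ¬ p ∣ ((S : Subgroup K) ⊓ J).relIndex J
    rw [Subgroup.inf_relIndex_right]
    exact fun hd => Sylow.not_dvd_index S (hd.trans (PSolv.relIndex_dvd_index_of_normal_right _ _))
  let Q : Sylow p J := hp'.toSylow hnd
  have htop := Q.normalizer_sup_eq_top
  have hQ : (Q : Subgroup J).map J.subtype = (S : Subgroup K) ⊓ J :=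
    Subgroup.map_subgroupOf_eq_of_le inf_le_right
  rw [hQ] at htop
  refine eq_top_iff.2 (htop.ge.trans (sup_le (fun g hg => hN ?_) hJM))
  exact hJeq ▸ PSolv.mem_normalizer_thompsonSubgroupOf hg

/-- **The fixed points of the operators involve `SL(2, p)`.** -/
theorem involve_SL2 (hXK : X ≤ Subgroup.normalizer (K : Set G)) (hX : IsElementaryAbelian q X)
    (hqK : ¬ q ∣ Nat.card K) (hsep : IsPSolvable p ↥K) (hO : pPrimeCore p ↥K = ⊥)
    (hnf : ¬ IsThompsonFactorizable p ↥K) :
    (p = 2 ∨ p = 3) ∧ ∃ W D : Subgroup G, W ≤ K ⊓ Subgroup.centralizer (X : Set G) ∧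
      D ≤ K ⊓ Subgroup.centralizer (X : Set G) ∧ IsElementaryAbelian p W ∧ Nat.card W = p ^ 2 ∧
      D ≤ Subgroup.normalizer (W : Set G) ∧
      ∃ _hn : ((Subgroup.centralizer (W : Set G)).subgroupOf D).Normal,
        Nonempty ((↥D ⧸ (Subgroup.centralizer (W : Set G)).subgroupOf D) ≃* SL(2, ZMod p)) := by
  obtain ⟨hVe, hOp, hiff⟩ := omegaV_data K hsep hO
  set V := omegaV p K with hV
  have hKV : K ≤ Subgroup.normalizer (V : Set G) := le_normalizer_omegaV' K
  have hXV : X ≤ Subgroup.normalizer (V : Set G) := hXK.trans (le_normalizer_omegaV K)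
  obtain ⟨h, hA⟩ := genHyp_act K X V (omegaV_le K) hVe hKV hXV hXK hsep hOp
    (Modules.elemAb_isPGroup hX) hqK
  set J := thompsonSubgroupOf p K with hJ
  obtain ⟨L, hL⟩ : ∃ L, FF.IsLine p (vimg V) (img V J) L := by
    by_contra hne
    push Not at hne
    have hb : img V J = ⊥ := le_bot_iff.1 (h.le_of_lines fun L hL => absurd hL (hne L))
    refine hnf (hiff.2 fun g hg => ?_)
    have hgN : g ∈ Subgroup.normalizer (V : Set G) :=
      hKV (Modules.thompsonSubgroupOf_le p K hg)
    exact (fhom_eq_one_iff ⟨g, hgN⟩).1 (Subgroup.mem_bot.1 (hb ▸ fhom_mem_img ⟨g, hgN⟩ hg))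
  refine ⟨h.toHyp.prime_le_three hL, ?_⟩
  obtain ⟨W', hW'le, hW'card, hW'n, ψ, hψ, hψker⟩ := FixedBlocks.exists_fixed_SL2 h hL hA
  set W := (W'.comap (SemidirectProduct.inl : V →* Semi V)).map V.subtype with hW
  set D := ((img V J).comap (fhom V)).map (Subgroup.normalizer (V : Set G)).subtype ⊓
    (K ⊓ Subgroup.centralizer (X : Set G)) with hD
  have hDV : D ≤ Subgroup.normalizer (V : Set G) := inf_le_right.trans (inf_le_left.trans hKV)
  have hDmem : ∀ d : D, fhom V (Subgroup.inclusion hDV d) ∈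
      img V J ⊓ Subgroup.centralizer (img V X : Set (Semi V)) := by
    intro d
    obtain ⟨hd1, hd2⟩ := Subgroup.mem_inf.1 d.2
    obtain ⟨k, hk, hkd⟩ := hd1
    have hkd' : k = Subgroup.inclusion hDV d := Subtype.ext hkd
    refine Subgroup.mem_inf.2 ⟨hkd' ▸ hk, Subgroup.mem_centralizer_iff.2 fun z hz => ?_⟩
    obtain ⟨a, ha, rfl⟩ := mem_img.1 hz
    rw [← map_mul, ← map_mul]
    exact congrArg _ (Subtype.ext (Subgroup.mem_centralizer_iff.1 hd2.2 a ha))
  let φ : D →* ↥(img V J ⊓ Subgroup.centralizer (img V X : Set (Semi V))) :=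
    ((fhom V).comp (Subgroup.inclusion hDV)).codRestrict _ hDmem
  have hWmem : ∀ {w : G}, w ∈ W ↔ ∃ v : V, (v : G) = w ∧ SemidirectProduct.inl v ∈ W' := by
    intro w
    constructor
    · rintro ⟨v, hv, rfl⟩; exact ⟨v, rfl, hv⟩
    · rintro ⟨v, rfl, hv⟩; exact ⟨v, hv, rfl⟩
  have hWX : ∀ w ∈ W, w ∈ Subgroup.centralizer (X : Set G) := by
    intro w hw
    obtain ⟨v, rfl, hv⟩ := hWmem.1 hw
    refine Subgroup.mem_centralizer_iff.2 fun a ha => (commute_iff ⟨a, hXV ha⟩ v).1 ?_
    exact Subgroup.mem_centralizer_iff.1 (hW'le hv).2 _ (fhom_mem_img ⟨a, hXV ha⟩ ha)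
  have hDW : D ≤ Subgroup.normalizer (W : Set G) := by
    refine Subgroup.le_normalizer_iff.2 fun d hd w hw => ?_
    obtain ⟨v, rfl, hv⟩ := hWmem.1 hw
    refine hWmem.2 ⟨V.normalizerMonoidHom ⟨d, hDV hd⟩ v, rfl, ?_⟩
    rw [← fhom_conj]
    exact (Subgroup.mem_normalizer_iff.1 (hW'n (hDmem ⟨d, hd⟩)) _).1 hv
  have hcent : ∀ d : D, ψ (φ d) = 1 ↔ (d : G) ∈ Subgroup.centralizer (W : Set G) := by
    intro d
    rw [hψker]
    constructor
    · intro hc
      refine Subgroup.mem_centralizer_iff.2 fun w hw => ?_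
      obtain ⟨v, rfl, hv⟩ := hWmem.1 hw
      exact ((commute_iff (Subgroup.inclusion hDV d) v).1
        (Subgroup.mem_centralizer_iff.1 hc _ hv).symm).symm
    · intro hc
      refine Subgroup.mem_centralizer_iff.2 fun z hz => ?_
      obtain ⟨v, rfl⟩ := (hW'le hz).1
      exact ((commute_iff (Subgroup.inclusion hDV d) v).2
        (Subgroup.mem_centralizer_iff.1 hc _ (hWmem.2 ⟨v, rfl, hz⟩)).symm).symm
  have hφ : Function.Surjective φ := by
    rintro ⟨δ, hδ⟩
    obtain ⟨c, hc, hcδ⟩ := exists_lift K X hXK hXV hKV (coprime_card K X hX hqK)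
      (isSolvable_of_elemAb X hX) hδ
    have hcD : (c : G) ∈ D :=
      Subgroup.mem_inf.2 ⟨⟨c, show fhom V c ∈ img V J by rw [hcδ]; exact hδ.1, rfl⟩, hc⟩
    exact ⟨⟨c, hcD⟩, Subtype.ext hcδ⟩
  have hker : (Subgroup.centralizer (W : Set G)).subgroupOf D = (ψ.comp φ).ker := by
    ext d
    rw [MonoidHom.mem_ker, Subgroup.mem_subgroupOf, MonoidHom.comp_apply]
    exact (hcent d).symm
  have hWV : W ≤ V := Subgroup.map_subtype_le _
  refine ⟨W, D, le_inf (hWV.trans (omegaV_le K)) hWX, inf_le_right, Modules.elemAb_mono hWV hVe,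
    ?_, hDW, hker ▸ MonoidHom.normal_ker _, ?_⟩
  · rw [hW, Subgroup.card_map_of_injective V.subtype_injective,
      ← Subgroup.card_map_of_injective (f := (SemidirectProduct.inl : V →* Semi V))
        SemidirectProduct.inl_injective,
      Subgroup.map_comap_eq_self (hW'le.trans inf_le_left), hW'card]
  · haveI : ((Subgroup.centralizer (W : Set G)).subgroupOf D).Normal :=
      hker ▸ MonoidHom.normal_ker _
    exact ⟨(QuotientGroup.quotientMulEquivOfEq hker).trans
      (QuotientGroup.quotientKerEquivOfSurjective (ψ.comp φ) (hψ.comp hφ))⟩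

end Cfsg.Agent.Stability.CoprimeFF
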