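import Cfsg.Agent.PSolv.HallHigman
import Cfsg.Agent.Cores.Basic
import Mathlib.GroupTheory.Nilpotent

/-!
Facts on the upper `p`-series of a `p`-solvable group.
-/

namespace Cfsg.Agent.Stability

open Subgroup PSolv

variable {G : Type*} [Group G] [Finite G] {p : ℕ} [Fact p.Prime]

theorem relIndex_comap_mk (N : Subgroup G) [N.Normal] (K : Subgroup (G ⧸ N)) :
    N.relIndex (K.comap (QuotientGroup.mk' N)) = Nat.card K := by
  rw [← PSolv.card_map_mk_eq_relIndex,
    map_comap_eq_self_of_surjective (QuotientGroup.mk'_surjective _)]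

theorem pPrimeCore_quotient_useries_odd (k : ℕ) :
    Cfsg.pPrimeCore p (G ⧸ useries p G (2 * k + 1)) = ⊥ := by
  set U := useries p G (2 * k + 1) with hU
  set N := (Cfsg.pPrimeCore p (G ⧸ U)).comap (QuotientGroup.mk' U) with hN
  have hUN : U ≤ N := QuotientGroup.le_comap_mk' _ _
  have hev : Even (2 * k) := ⟨k, by omega⟩
  have h1 : ((useries p G (2 * k)).relIndex N).Coprime p := by
    rw [← relIndex_mul_relIndex _ U N (useries_le_succ _) hUN, hU, hN, relIndex_comap_mk]
    exact Nat.Coprime.mul_left (useries_relIndex_even hev) (PSolv.coprime_card_pPrimeCore p _)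
  have h2 : N ≤ U := le_useries_succ_even hev (Normal.comap inferInstance _) h1
  rw [← map_comap_eq_self_of_surjective (QuotientGroup.mk'_surjective U)
    (Cfsg.pPrimeCore p (G ⧸ U)), ← hN, le_antisymm h2 hUN, QuotientGroup.map_mk'_self]

theorem useries_succ_succ_map (k : ℕ) :
    (useries p G (2 * k + 2)).map (QuotientGroup.mk' (useries p G (2 * k + 1))) =
      Cfsg.pCore p (G ⧸ useries p G (2 * k + 1)) := by
  rw [show useries p G (2 * k + 2) = _ from useries_succ_odd (n := 2 * k + 1)
    (by rw [Nat.even_add_one]; exact not_not.2 ⟨k, by omega⟩),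
    map_comap_eq_self_of_surjective (QuotientGroup.mk'_surjective _)]

theorem comap_useries_quotient_le :
    ∀ n : ℕ, (useries p (G ⧸ useries p G 2) n).comap (QuotientGroup.mk' (useries p G 2)) ≤
      useries p G (n + 2)
  | 0 => by rw [useries_zero, MonoidHom.comap_bot, QuotientGroup.ker_mk']
  | n + 1 => by
    set π := QuotientGroup.mk' (useries p G 2) with hπ
    have ih : (useries p (G ⧸ useries p G 2) n).comap π ≤ useries p G (n + 2) :=
      comap_useries_quotient_le n
    have hd : (useries p G (n + 2)).relIndex ((useries p (G ⧸ useries p G 2) (n + 1)).comap π) ∣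
        (useries p (G ⧸ useries p G 2) n).relIndex (useries p (G ⧸ useries p G 2) (n + 1)) := by
      refine (Subgroup.relIndex_dvd_of_le_left _ ih).trans ?_
      rw [relIndex_comap, map_comap_eq_self_of_surjective (QuotientGroup.mk'_surjective _)]
    have hN : ((useries p (G ⧸ useries p G 2) (n + 1)).comap π).Normal :=
      (Cfsg.upperPSeries_normal p _ (n + 1)).comap π
    by_cases hn : Even n
    · have hn2 : Even (n + 2) := by simp [Nat.even_add, hn]
      exact le_useries_succ_even hn2 hN (Nat.Coprime.coprime_dvd_left hd (useries_relIndex_even hn))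
    · have hn2 : ¬ Even (n + 2) := by simp [Nat.even_add, hn]
      obtain ⟨m, hm⟩ := useries_relIndex_odd (p := p) (G := G ⧸ useries p G 2) hn
      rw [hm] at hd
      obtain ⟨i, -, hi⟩ := (Nat.dvd_prime_pow Fact.out).1 hd
      exact le_useries_succ_odd hn2 hN hi

/-- The centre of a Sylow subgroup lies in `O_{p',p}`. -/
theorem center_sylow_le_useries_two (hsol : Cfsg.IsPSolvable p G) (S : Sylow p G) :
    (Subgroup.center ↥(S : Subgroup G)).map (S : Subgroup G).subtype ≤ useries p G 2 := by
  set π := QuotientGroup.mk' (useries p G 1) with hπ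
  have h0 : Cfsg.pPrimeCore p (G ⧸ useries p G 1) = ⊥ := pPrimeCore_quotient_useries_odd 0
  have h2 : useries p G 2 = (Cfsg.pCore p (G ⧸ useries p G 1)).comap π :=
    useries_succ_odd (n := 1) (by decide)
  have hle : Cfsg.pCore p (G ⧸ useries p G 1) ≤ (S : Subgroup G).map π :=
    PSolv.pCore_le_sylow (S.mapSurjective (f := π) (QuotientGroup.mk'_surjective _))
  rintro _ ⟨z, hz, rfl⟩
  rw [h2, mem_comap]
  refine centralizer_pCore_le (isPSolvable_quotient hsol _) h0 (mem_centralizer_iff.2 fun q hq => ?_)
  obtain ⟨s, hs, rfl⟩ := hle hq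
  rw [← map_mul, ← map_mul]
  exact congrArg π (congrArg Subtype.val (Subgroup.mem_center_iff.1 hz ⟨s, hs⟩))

universe u

/-- The `p`-length is at most the class of a Sylow subgroup. -/
theorem pLengthLE_class {G : Type u} [Group G] [Finite G] (hsol : Cfsg.IsPSolvable p G)
    (S : Sylow p G) (c : ℕ) (hc : Group.nilpotencyClass ↥(S : Subgroup G) ≤ c) :
    Cfsg.PLengthLE p c G := by
  induction c generalizing G with
  | zero =>
    haveI : Group.IsNilpotent ↥(S : Subgroup G) := S.2.isNilpotent
    have hs := Group.nilpotencyClass_zero_iff_subsingleton.1 (Nat.le_zero.1 hc)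
    show useries p G (0 + 1) = ⊤
    rw [eq_top_iff]
    refine le_useries_succ_even (by decide) (inferInstance : (⊤ : Subgroup G).Normal) ?_
    rw [useries_zero, relIndex_bot_left, card_top]
    refine ((Fact.out : p.Prime).coprime_iff_not_dvd.2 fun hd => ?_).symm
    obtain ⟨x, hx⟩ := exists_prime_orderOf_dvd_card' p hd
    have hzp : IsPGroup p (zpowers x) :=
      IsPGroup.of_card (n := 1) (by rw [Nat.card_zpowers, hx, pow_one])
    obtain ⟨T, hT⟩ := hzp.exists_le_sylow
    haveI : Subsingleton ↥(T : Subgroup G) := (Sylow.equiv T S).toEquiv.subsingleton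
    have h1 : x = 1 := congrArg Subtype.val
      (Subsingleton.elim (⟨x, hT (mem_zpowers x)⟩ : ↥(T : Subgroup G)) 1)
    rw [h1, orderOf_one] at hx
    exact (Fact.out : p.Prime).ne_one hx.symm
  | succ c ih =>
    haveI : Group.IsNilpotent ↥(S : Subgroup G) := S.2.isNilpotent
    set π := QuotientGroup.mk' (useries p G 2) with hπ
    let S' := S.mapSurjective (f := π) (QuotientGroup.mk'_surjective _)
    let f : ↥(S : Subgroup G) ⧸ Subgroup.center ↥(S : Subgroup G) →* ↥((S : Subgroup G).map π) :=
      QuotientGroup.lift _ (π.subgroupMap (S : Subgroup G)) fun z hz => by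
        rw [MonoidHom.mem_ker]
        exact Subtype.ext ((QuotientGroup.eq_one_iff _).2
          (center_sylow_le_useries_two hsol S (mem_map_of_mem _ hz)))
    have hf : Function.Surjective f := fun y => by
      obtain ⟨x, hx⟩ := π.subgroupMap_surjective (S : Subgroup G) y
      exact ⟨QuotientGroup.mk x, hx⟩
    have h1 : Group.nilpotencyClass ↥((S : Subgroup G).map π) ≤ c := by
      refine (Group.nilpotencyClass_le_of_surjective f hf).trans ?_
      rw [Group.nilpotencyClass_quotient_center]
      omega
    have h2 : useries p (G ⧸ useries p G 2) (2 * c + 1) = ⊤ := ih (isPSolvable_quotient hsol _) S' h1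
    have h3 := comap_useries_quotient_le (p := p) (G := G) (2 * c + 1)
    rw [h2, Subgroup.comap_top] at h3
    exact top_le_iff.1 h3

end Cfsg.Agent.Stability
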