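import Cfsg.Prelude.Def_OddOrderLocal
import Cfsg.Agent.FT.BG4.Agemo
import Cfsg.Agent.FT.BG4.OmegaCases
import Cfsg.Agent.Stability.Regular
import Cfsg.Agent.PGroup.Basic

/-!
Huppert: for odd `p`, a `p`-group with `|G : ℧₁(G)| ≤ p²` is metacyclic.
-/

set_option autoImplicit false

namespace Cfsg.Agent.Stability

open Subgroup
open scoped commutatorElement
open Cfsg.Agent.FT.BG4 (agemo pow_mem_agemo agemo_characteristic)

universe u

theorem index_agemo_quotient_le {G : Type u} [Group G] [Finite G] (p : ℕ) (T : Subgroup G) [T.Normal]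
    {m : ℕ} (h : (agemo p G).index ≤ m) : (agemo p (G ⧸ T)).index ≤ m := by
  have hle : (agemo p G).map (QuotientGroup.mk' T) ≤ agemo p (G ⧸ T) := by
    rw [agemo, MonoidHom.map_closure, closure_le]
    rintro _ ⟨_, ⟨x, rfl⟩, rfl⟩
    rw [map_pow]
    exact pow_mem_agemo _
  refine le_trans ?_ h
  refine le_trans (index_antitone hle) (Nat.le_of_dvd ?_ ?_)
  · exact Nat.pos_of_ne_zero index_ne_zero_of_finite
  · exact index_map_dvd _ (QuotientGroup.mk'_surjective T)

section

variable {G : Type u} [Group G] [Finite G] {p : ℕ} [hp : Fact p.Prime]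

/-- If some cyclic subgroup generated outside `℧₁` contains the derived group, `G` is metacyclic. -/
theorem metacyclic_of_mem (hG : IsPGroup p G) (hidx : (agemo p G).index ≤ p ^ 2) {g : G}
    (hg : g ∉ agemo p G) (hc : commutator G ≤ zpowers g) : Cfsg.IsMetacyclic G := by
  set F := agemo p G with hF
  have hpp := hp.out
  haveI := PGroup.normal_of_commutator_le hc
  haveI : F.Normal := by
    have := agemo_characteristic p G
    infer_instance
  set M := zpowers g ⊔ F with hM
  have hlt : F < M := lt_of_le_of_ne le_sup_right fun e =>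
    hg (e.ge (mem_sup_left (mem_zpowers g)))
  have hMidx : M.index ≤ p := by
    obtain ⟨j, hj⟩ := hG.index F
    obtain ⟨i, hi⟩ := hG.index M
    have h1 := index_strictAnti hlt
    rw [hi, hj] at h1
    have hij := (Nat.pow_lt_pow_iff_right hpp.one_lt).1 h1
    have hj2 : j ≤ 2 := (Nat.pow_le_pow_iff_right hpp.one_lt).1 (hj ▸ hidx)
    rw [hi]
    calc p ^ i ≤ p ^ 1 := Nat.pow_le_pow_right hpp.pos (by omega)
      _ = p := pow_one p
  obtain ⟨h, hh⟩ : ∃ h : G, M ⊔ zpowers h = ⊤ := by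
    rcases eq_or_ne M ⊤ with e | e
    · exact ⟨1, by rw [e, top_sup_eq]⟩
    obtain ⟨h, hh⟩ : ∃ h, h ∉ M := by
      by_contra hall
      push Not at hall
      exact e (eq_top_iff.2 fun x _ => hall x)
    refine ⟨h, index_eq_one.1 ?_⟩
    have hlt' : M < M ⊔ zpowers h :=
      lt_of_le_of_ne le_sup_left fun e => hh (e.ge (mem_sup_right (mem_zpowers h)))
    obtain ⟨i, hi⟩ := hG.index (M ⊔ zpowers h)
    have h1 := index_strictAnti hlt'
    rw [hi] at h1 ⊢
    have h2 : p ^ i < p ^ 1 := by rw [pow_one]; omega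
    rw [Nat.pow_lt_pow_iff_right hpp.one_lt] at h2
    rw [Nat.lt_one_iff.1 h2, pow_zero]
  have hFfr : F ≤ frattini G := (closure_le _).2 (by
    rintro _ ⟨x, rfl⟩
    exact PGroup.pow_mem_frattini hG x)
  have htop : zpowers g ⊔ zpowers h = ⊤ := by
    refine frattini_nongenerating (eq_top_iff.2 ?_)
    rw [← hh, hM]
    exact sup_le (sup_le (le_sup_of_le_left le_sup_left) (hFfr.trans le_sup_right))
      (le_sup_of_le_left le_sup_right)
  refine ⟨zpowers g, inferInstance, inferInstance, ⟨QuotientGroup.mk' _ h, fun q => ?_⟩⟩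
  have hr : (⊤ : Subgroup G).map (QuotientGroup.mk' (zpowers g)) ≤
      zpowers (QuotientGroup.mk' (zpowers g) h) := by
    rw [← htop, map_le_iff_le_comap, sup_le_iff]
    refine ⟨fun x hx => ?_, zpowers_le.2 (mem_zpowers _)⟩
    rw [mem_comap, show QuotientGroup.mk' (zpowers g) x = 1 from (QuotientGroup.eq_one_iff _).2 hx]
    exact one_mem _
  obtain ⟨x, rfl⟩ := QuotientGroup.mk'_surjective _ q
  exact hr (mem_map_of_mem _ (mem_top x))

end

/-- **Huppert**: for odd `p`, a `p`-group with `|G : ℧₁(G)| ≤ p²` is metacyclic. -/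
theorem isMetacyclic_of_index_agemo_le {p : ℕ} [hp : Fact p.Prime] (hp2 : p ≠ 2) :
    ∀ (G : Type u) [Group G] [Finite G], IsPGroup p G → (agemo p G).index ≤ p ^ 2 →
      Cfsg.IsMetacyclic G := by
  intro G
  induction hn : Nat.card G using Nat.strong_induction_on generalizing G with
  | _ n ih =>
  subst hn
  intro _ _ hG hidx
  have hpp := hp.out
  set F := agemo p G with hF
  haveI : F.Normal := by
    have := agemo_characteristic p G
    infer_instance
  have hFfr : F ≤ frattini G := (closure_le _).2 (by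
    rintro _ ⟨x, rfl⟩
    exact PGroup.pow_mem_frattini hG x)
  rcases eq_or_ne F ⊤ with hFt | hFt
  · haveI : Subsingleton G := by
      have : (⊥ : Subgroup G) = ⊤ :=
        frattini_nongenerating (eq_top_iff.2 (hFt.ge.trans (hFfr.trans le_sup_right)))
      exact Subgroup.subsingleton_iff.1 (subsingleton_of_bot_eq_top this)
    exact ⟨⊤, inferInstance, inferInstance, ⟨1, fun q => ⟨1, Subsingleton.elim _ _⟩⟩⟩
  obtain ⟨g₀, hg₀⟩ : ∃ g, g ∉ F := by
    by_contra hall
    push Not at hall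
    exact hFt (eq_top_iff.2 fun x _ => hall x)
  by_cases hcomm : commutator G = ⊥
  · exact metacyclic_of_mem hG hidx hg₀ (hcomm ▸ bot_le)
  haveI : (commutator G).Normal := inferInstance
  obtain ⟨z₀, hz₀, hz₀1⟩ := ((commutator G ⊓ Subgroup.center G).bot_or_exists_ne_one).resolve_left
    (PGroup.inf_center_ne_bot hG _ hcomm)
  obtain ⟨k, hk⟩ := (hG z₀)
  obtain ⟨z, hzC, hz1, hzp, hzc⟩ :
      ∃ z, z ∈ commutator G ∧ z ≠ 1 ∧ z ^ p = 1 ∧ z ∈ Subgroup.center G := by
    induction k generalizing z₀ with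
    | zero => exact absurd (by simpa using hk) hz₀1
    | succ k ihk =>
      by_cases h : z₀ ^ p ^ k = 1
      · exact ihk z₀ hz₀ hz₀1 h
      · exact ⟨z₀ ^ p ^ k, pow_mem hz₀.1 _, h, by rw [← pow_mul, ← pow_succ, hk],
          pow_mem hz₀.2 _⟩
  set Z := zpowers z with hZ
  have hZc : Z ≤ Subgroup.center G := zpowers_le.2 hzc
  haveI : Z.Normal := ⟨fun x hx g => by
    rw [Subgroup.mem_center_iff.1 (hZc hx) g, mul_inv_cancel_right]; exact hx⟩
  have hlt : Nat.card (G ⧸ Z) < Nat.card G := by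
    have h1 := Z.card_mul_index
    rw [← Subgroup.index_eq_card]
    have h2 : 1 < Nat.card Z := by
      rw [hZ, Nat.card_zpowers, orderOf_eq_prime hzp hz1]
      exact hpp.one_lt
    have h3 : 0 < Z.index := Nat.pos_of_ne_zero index_ne_zero_of_finite
    nlinarith
  obtain ⟨N', hN'n, hN'c, hQ'⟩ := ih _ hlt (G ⧸ Z) rfl (hG.to_quotient Z)
    (index_agemo_quotient_le p Z hidx)
  haveI := hN'n
  haveI := hN'c
  haveI := hQ'
  set N := N'.comap (QuotientGroup.mk' Z) with hN
  haveI : N.Normal := by rw [hN]; infer_instance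
  have hZN : Z ≤ N := fun x hx => by
    rw [hN, mem_comap, show QuotientGroup.mk' Z x = 1 from (QuotientGroup.eq_one_iff _).2 hx]
    exact one_mem _
  obtain ⟨⟨a', ha'⟩, hagen⟩ := hN'c.exists_generator
  obtain ⟨a, rfl⟩ := QuotientGroup.mk'_surjective Z a'
  have hrep : ∀ x ∈ N, ∃ (i j : ℤ), x = a ^ i * z ^ j := by
    intro x hx
    obtain ⟨i, hi⟩ := hagen ⟨QuotientGroup.mk' Z x, hx⟩
    have hi' : QuotientGroup.mk' Z (a ^ i) = QuotientGroup.mk' Z x := by
      rw [map_zpow]
      exact congrArg Subtype.val hi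
    obtain ⟨j, hj⟩ := (QuotientGroup.eq).1 hi'
    refine ⟨i, j, ?_⟩
    have hj' : z ^ j = (a ^ i)⁻¹ * x := hj
    rw [hj', mul_inv_cancel_left]
  have hzcomm : ∀ (x : G) (j : ℤ), x * z ^ j = z ^ j * x := fun x j =>
    Subgroup.mem_center_iff.1 (zpow_mem hzc j) x
  have hNab : ∀ x ∈ N, ∀ y ∈ N, x * y = y * x := by
    intro x hx y hy
    obtain ⟨i, j, rfl⟩ := hrep x hx
    obtain ⟨i', j', rfl⟩ := hrep y hy
    have h1 : Commute (a ^ i) (a ^ i') := Commute.zpow_zpow_self a i i'
    have h2 : Commute (a ^ i) (z ^ j') := hzcomm _ _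
    have h3 : Commute (z ^ j) (a ^ i') := (hzcomm _ _ : Commute (a ^ i') (z ^ j)).symm
    have h4 : Commute (z ^ j) (z ^ j') := hzcomm _ _
    exact ((h1.mul_right h2).mul_left (h3.mul_right h4)).eq
  have haN : a ∈ N := ha'
  obtain ⟨b'', hbgen⟩ := hQ'.exists_generator
  obtain ⟨b', rfl⟩ := QuotientGroup.mk'_surjective N' b''
  obtain ⟨b, rfl⟩ := QuotientGroup.mk'_surjective Z b'
  have hgen : ∀ x : G, ∃ (n : G) (i : ℤ), n ∈ N ∧ x = n * b ^ i := by
    intro x
    obtain ⟨i, hi⟩ := hbgen (QuotientGroup.mk' N' (QuotientGroup.mk' Z x))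
    refine ⟨x * (b ^ i)⁻¹, i, ?_, by rw [inv_mul_cancel_right]⟩
    rw [hN, mem_comap, map_mul, map_inv, map_zpow, ← QuotientGroup.eq_one_iff]
    show QuotientGroup.mk' N' _ = 1
    simp only [map_mul, map_inv, map_zpow]
    rw [mul_inv_eq_one]
    exact hi.symm
  set c := ⁅a, b⁆ with hc
  have hcN : c ∈ N := by
    rw [hc, commutatorElement_def, show a * b * a⁻¹ * b⁻¹ = a * (b * a⁻¹ * b⁻¹) by group]
    exact mul_mem haN ((inferInstance : N.Normal).conj_mem _ (inv_mem haN) b)
  -- commutation with `b` on `N`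
  have hadd : ∀ x ∈ N, ∀ y ∈ N, ⁅x * y, b⁆ = ⁅x, b⁆ * ⁅y, b⁆ := by
    intro x hx y hy
    have hyb : ⁅y, b⁆ ∈ N := by
      rw [commutatorElement_def, show y * b * y⁻¹ * b⁻¹ = y * (b * y⁻¹ * b⁻¹) by group]
      exact mul_mem hy ((inferInstance : N.Normal).conj_mem _ (inv_mem hy) b)
    have hxb : ⁅x, b⁆ ∈ N := by
      rw [commutatorElement_def, show x * b * x⁻¹ * b⁻¹ = x * (b * x⁻¹ * b⁻¹) by group]
      exact mul_mem hx ((inferInstance : N.Normal).conj_mem _ (inv_mem hx) b)
    rw [show ⁅x * y, b⁆ = x * ⁅y, b⁆ * x⁻¹ * ⁅x, b⁆ by simp only [commutatorElement_def]; group,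
      hNab x hx _ hyb, mul_inv_cancel_right, hNab _ hxb _ hyb]
  have hzb : ∀ j : ℤ, ⁅z ^ j, b⁆ = 1 := fun j =>
    commutatorElement_eq_one_iff_mul_comm.2 (hzcomm b j).symm
  let φ : N →* G := MonoidHom.mk' (fun x => ⁅(x : G), b⁆) fun x y => hadd x x.2 y y.2
  have hφ : ∀ x ∈ N, ⁅x, b⁆ ∈ zpowers c := by
    intro x hx
    obtain ⟨i, j, rfl⟩ := hrep x hx
    refine ⟨i, ?_⟩
    have h1 : φ ((⟨a, haN⟩ : N) ^ i) = φ ⟨a, haN⟩ ^ i := map_zpow φ _ _
    show c ^ i = _
    rw [hadd _ (zpow_mem haN i) _ (zpow_mem (hZN (mem_zpowers z)) j), hzb, mul_one]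
    simpa [φ] using h1.symm
  set C := zpowers c with hC
  have hCN : C ≤ N := zpowers_le.2 hcN
  have hcb : b * c * b⁻¹ ∈ C := by
    have h1 : b * c * b⁻¹ = ⁅b * a * b⁻¹, b⁆ := by
      rw [hc]; simp only [commutatorElement_def]; group
    rw [h1]
    exact hφ _ ((inferInstance : N.Normal).conj_mem a haN b)
  have hbC : b ∈ normalizer (C : Set G) := by
    rw [mem_normalizer_iff_map_conj_eq]
    refine eq_of_le_of_card_ge ?_ ?_
    · rw [map_le_iff_le_comap, hC, zpowers_le, mem_comap]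
      exact hcb
    · rw [card_map_of_injective (MulEquiv.injective _)]
  haveI hCn : C.Normal := ⟨fun x hx g => by
    obtain ⟨n, i, hn, rfl⟩ := hgen g
    have h1 : b ^ i * x * (b ^ i)⁻¹ ∈ C := (mem_normalizer_iff.1 (zpow_mem hbC i) x).1 hx
    rw [show n * b ^ i * x * (n * b ^ i)⁻¹ = n * (b ^ i * x * (b ^ i)⁻¹) * n⁻¹ by group,
      hNab n hn _ (hCN h1), mul_inv_cancel_right]
    exact h1⟩
  have hCle : commutator G ≤ C := by
    rw [_root_.commutator_def, commutator_le]
    intro x _ y _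
    obtain ⟨n, i, hn, rfl⟩ := hgen x
    obtain ⟨n', j, hn', rfl⟩ := hgen y
    set π := QuotientGroup.mk' C
    have hNb : ∀ m ∈ N, Commute (π m) (π b) := fun m hm => by
      rw [← commutatorElement_eq_one_iff_commute, ← map_commutatorElement]
      exact (QuotientGroup.eq_one_iff _).2 (hφ m hm)
    refine (QuotientGroup.eq_one_iff _).1 ?_
    show π _ = 1
    rw [map_commutatorElement, commutatorElement_eq_one_iff_commute, map_mul, map_mul, map_zpow,
      map_zpow]
    have h1 : Commute (π n) (π n') := by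
      rw [commute_iff_eq, ← map_mul, ← map_mul, hNab n hn n' hn']
    exact (h1.mul_right ((hNb n hn).zpow_right j)).mul_left
      (((hNb n' hn').symm.zpow_left i).mul_right (Commute.zpow_zpow_self _ i j))
  obtain ⟨m, hm⟩ := hCle hzC
  have hm' : c ^ m = z := hm
  have hc1 : c ≠ 1 := fun h => hz1 (by rw [← hm', h, one_zpow])
  by_cases hcp : c ^ p = 1
  · -- the derived group has order `p` and is central
    have hco : orderOf c = p := orderOf_eq_prime hcp hc1
    have hCZ : C = Z := (eq_of_le_of_card_ge (zpowers_le.2 (hCle hzC)) (by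
      rw [hC, Nat.card_zpowers, Nat.card_zpowers, hco, orderOf_eq_prime hzp hz1])).symm
    have hcen : ∀ x y : G, ⁅x, y⁆ ∈ Subgroup.center G := fun x y =>
      hZc (hCZ ▸ hCle (commutator_mem_commutator (mem_top x) (mem_top y)))
    have hcex : ∀ x y : G, ⁅x, y⁆ ^ p = 1 := fun x y => by
      obtain ⟨l, hl⟩ := hCle (commutator_mem_commutator (mem_top x) (mem_top y))
      rw [← show c ^ l = ⁅x, y⁆ from hl, ← zpow_natCast, ← zpow_mul, mul_comm, zpow_mul,
        zpow_natCast, hcp, one_zpow]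
    have hmul : ∀ x y : G, (x * y) ^ p = x ^ p * y ^ p := fun x y =>
      PGroup.mul_pow_of_odd (hpp.odd_of_ne_two hp2) (hcen y x) (hcex y x)
    have hpow : ∀ x ∈ F, ∃ y : G, x = y ^ p := by
      intro x hx
      induction hx using closure_induction with
      | mem x hx => obtain ⟨y, rfl⟩ := hx; exact ⟨y, rfl⟩
      | one => exact ⟨1, (one_pow p).symm⟩
      | mul x y _ _ hx hy =>
        obtain ⟨u, rfl⟩ := hx
        obtain ⟨v, rfl⟩ := hy
        exact ⟨u * v, (hmul u v).symm⟩
      | inv x _ hx => obtain ⟨u, rfl⟩ := hx; exact ⟨u⁻¹, (inv_pow u p).symm⟩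
    have hCF : commutator G ≤ F := by
      refine (Subgroup.Normal.quotient_commutative_iff_commutator_le (N := F)).mp ⟨⟨fun u v => ?_⟩⟩
      obtain ⟨j, hj⟩ := hG.index F
      have hj2 : j ≤ 2 := (Nat.pow_le_pow_iff_right hpp.one_lt).mp (hj ▸ hidx)
      have hcard : Nat.card (G ⧸ F) = p ^ j := by rw [← Subgroup.index_eq_card, hj]
      rcases (by omega : j = 0 ∨ j = 1 ∨ j = 2) with rfl | rfl | rfl
      · haveI := (Nat.card_eq_one_iff_unique.mp (hcard.trans (pow_zero p))).1
        exact Subsingleton.elim _ _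
      · haveI := isCyclic_of_prime_card (hcard.trans (pow_one p))
        letI := IsCyclic.commGroup (α := G ⧸ F)
        exact mul_comm u v
      · exact IsPGroup.commutative_of_card_eq_prime_sq hcard u v
    classical
    obtain ⟨K, hK⟩ := IsPGroup.iff_card.mp hG
    let E : Finset ℕ := (Finset.range (K + 1)).filter fun e => ∃ x : G, x ^ p ^ e = z
    have hEmem : ∀ e, (∃ x : G, x ^ p ^ e = z) → e ∈ E := by
      intro e he
      refine Finset.mem_filter.mpr ⟨Finset.mem_range.mpr ?_, he⟩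
      by_contra hlt'
      obtain ⟨x, hx⟩ := he
      refine hz1 ?_
      rw [← hx]
      exact orderOf_dvd_iff_pow_eq_one.mp
        ((orderOf_dvd_natCard x).trans (hK ▸ pow_dvd_pow p (by omega)))
    obtain ⟨e, heE, hemax⟩ := Finset.exists_max_image E id ⟨0, hEmem 0 ⟨z, by simp⟩⟩
    obtain ⟨g, hg⟩ := (Finset.mem_filter.mp heE).2
    refine metacyclic_of_mem hG hidx (g := g) (fun hgF => ?_) (hCle.trans (hCZ.le.trans ?_))
    · obtain ⟨y, rfl⟩ := hpow g hgF
      have h1 := hemax (e + 1) (hEmem _ ⟨y, by rw [pow_succ', pow_mul, hg]⟩)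
      simp at h1
    · rw [hZ, zpowers_le, ← hg]
      exact npow_mem_zpowers _ _
  · -- the derived group meets `⟨a⟩` in `Z`, so `N` is cyclic
    have hza : z ∈ zpowers a := by
      obtain ⟨i, j, hij⟩ := hrep c hcN
      have hcpa : c ^ (p : ℤ) ∈ zpowers a := by
        rw [hij, Commute.mul_zpow (show Commute (a ^ i) (z ^ j) from hzcomm _ _), ← zpow_mul z j, mul_comm j, zpow_mul z,
          zpow_natCast z p, hzp, one_zpow, mul_one, ← zpow_mul]
        exact zpow_mem_zpowers _ _
      obtain ⟨k, hk⟩ := (IsPGroup.iff_orderOf.mp hG) c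
      have hk2 : 2 ≤ k := by
        by_contra hlt'
        apply hcp
        rw [← orderOf_dvd_iff_pow_eq_one, hk]
        exact (pow_dvd_pow p (show k ≤ 1 by omega)).trans (pow_one p).dvd
      have hd : ((p : ℤ) ^ k) ∣ m * p := by
        have : c ^ (m * (p : ℤ)) = 1 := by rw [zpow_mul, hm', zpow_natCast, hzp]
        have h2 := orderOf_dvd_iff_zpow_eq_one.2 this
        rw [hk] at h2
        exact_mod_cast h2
      obtain ⟨m', rfl⟩ : (p : ℤ) ∣ m := by
        obtain ⟨k', rfl⟩ : ∃ k', k = k' + 1 + 1 := ⟨k - 2, by omega⟩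
        rw [pow_succ] at hd
        exact (dvd_pow_self _ (Nat.succ_ne_zero k')).trans
          (Int.dvd_of_mul_dvd_mul_right (Int.natCast_ne_zero.2 hpp.ne_zero) hd)
      rw [← hm', zpow_mul]
      exact zpow_mem hcpa m'
    have hNa : N = zpowers a := by
      refine le_antisymm (fun x hx => ?_) (zpowers_le.2 haN)
      obtain ⟨i, j, rfl⟩ := hrep x hx
      exact mul_mem (zpow_mem_zpowers a i) (zpow_mem hza j)
    refine ⟨N, inferInstance, ?_, ⟨QuotientGroup.mk' N b, fun q => ?_⟩⟩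
    · rw [hNa]; infer_instance
    · obtain ⟨x, rfl⟩ := QuotientGroup.mk'_surjective N q
      obtain ⟨n, i, hn, rfl⟩ := hgen x
      refine ⟨i, ?_⟩
      show QuotientGroup.mk' N b ^ i = _
      rw [map_mul, map_zpow, show QuotientGroup.mk' N n = 1 from (QuotientGroup.eq_one_iff _).2 hn,
        one_mul]

section

variable {R : Type u} [Group R] [Finite R] {p : ℕ} [hp : Fact p.Prime]

/-- `p ≥ 5`: few elements of order `p` force a metacyclic group. -/
theorem isMetacyclic_of_card_omega_le (h3 : 3 < p) (hR : IsPGroup p R)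
    (hO : Nat.card ↥(Cfsg.omegaOne p (⊤ : Subgroup R)) ≤ p ^ 2) : Cfsg.IsMetacyclic R := by
  set D := Cfsg.omegaOne p (⊤ : Subgroup R) with hD
  haveI : D.Normal := normal_closure_of_conj (fun x hx g => ⟨mem_top _, by
    rw [conj_pow, hx.2, mul_one, mul_inv_cancel]⟩)
  obtain ⟨j, hj⟩ := IsPGroup.iff_card.mp (hR.to_subgroup D)
  have hcomm : ∀ x y : D, x * y = y * x := by
    have hj2 : j ≤ 2 := (Nat.pow_le_pow_iff_right hp.out.one_lt).mp (hj ▸ hO)
    rcases (by omega : j = 0 ∨ j = 1 ∨ j = 2) with rfl | rfl | rfl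
    · haveI := (Nat.card_eq_one_iff_unique.mp (hj.trans (pow_zero p))).1
      exact fun x y => Subsingleton.elim _ _
    · haveI := isCyclic_of_prime_card (hj.trans (pow_one p))
      letI := IsCyclic.commGroup (α := D)
      exact mul_comm
    · exact IsPGroup.commutative_of_card_eq_prime_sq hj
  have hDe : ∀ x ∈ D, x ^ p = 1 := by
    intro x hx
    have hx0 := hx
    induction hx0 using closure_induction with
    | mem x hx' => exact hx'.2
    | one => exact one_pow p
    | mul x y hx' hy' ihx ihy =>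
      have hxy : Commute x y := congrArg Subtype.val (hcomm ⟨x, hx'⟩ ⟨y, hy'⟩)
      rw [hxy.mul_pow, ihx hx', ihy hy', one_mul]
    | inv x hx' ihx => rw [inv_pow, ihx hx', inv_one]
  exact isMetacyclic_of_index_agemo_le (by omega) R hR
    (FT.BG4.index_agemo_le h3 hR hO hDe fun x hx => subset_closure ⟨mem_top _, hx⟩)
where
  normal_closure_of_conj {s : Set R} (h : ∀ x ∈ s, ∀ g : R, g * x * g⁻¹ ∈ s) :
      (closure s).Normal := by
    refine ⟨fun x hx g => ?_⟩
    have h1 : (closure s).map (MulAut.conj g).toMonoidHom ≤ closure s := by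
      rw [MonoidHom.map_closure]
      exact closure_mono (by rintro _ ⟨y, hy, rfl⟩; exact h y hy g)
    exact h1 ⟨x, hx, rfl⟩

end

end Cfsg.Agent.Stability
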